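import Mathlib
import Cfsg.Agent.Lib.OddChar.DadeInt

set_option autoImplicit false

open scoped ComplexConjugate

namespace Cfsg.Agent.Lib.FTBound

open Cfsg (IsCharacter IsIrrCharacter IrrCharacter IsGeneralizedCharacter classInner
  IsClassFunction)
open Cfsg.Agent.Lib.Char Cfsg.Agent.Lib.OddChar

universe u

variable {G : Type u} [Group G]

/-- The union of the centralizers of the nontrivial elements of `H`. -/
def SS (H : Subgroup G) : Set G := {g | ∃ h ∈ H, h ≠ 1 ∧ g * h = h * g}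

/-- The "at most one conjugate" condition. -/
def OneConj (H : Subgroup G) : Prop :=
  ∀ g : G, g ∉ Subgroup.center G → ∀ a b : G,
    Subgroup.centralizer ({g} : Set G) ⊓ H.map (MulAut.conj a).toMonoidHom ≠ ⊥ →
    Subgroup.centralizer ({g} : Set G) ⊓ H.map (MulAut.conj b).toMonoidHom ≠ ⊥ →
    H.map (MulAut.conj a).toMonoidHom = H.map (MulAut.conj b).toMonoidHom

theorem ss_conj {H : Subgroup G} (hone : OneConj H) {g x : G} (hg : g ∈ SS H)
    (hgZ : g ∉ Subgroup.center G) (hx : x * g * x⁻¹ ∈ SS H) :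
    x ∈ Subgroup.normalizer (H : Set G) := by
  obtain ⟨h, hh, hh1, hgh⟩ := hg
  obtain ⟨k, hk, hk1, hgk⟩ := hx
  have h1 : Subgroup.centralizer ({g} : Set G) ⊓ H.map (MulAut.conj (1 : G)).toMonoidHom ≠ ⊥ := by
    intro hbot
    have : h ∈ Subgroup.centralizer ({g} : Set G) ⊓ H.map (MulAut.conj (1 : G)).toMonoidHom := by
      refine Subgroup.mem_inf.2 ⟨?_, ?_⟩
      · rw [Subgroup.mem_centralizer_singleton_iff]
        exact hgh.symm
      · refine ⟨h, hh, ?_⟩
        simp
    rw [hbot, Subgroup.mem_bot] at this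
    exact hh1 this
  have h2 : Subgroup.centralizer ({g} : Set G) ⊓ H.map (MulAut.conj (x⁻¹)).toMonoidHom ≠ ⊥ := by
    intro hbot
    have : x⁻¹ * k * x ∈ Subgroup.centralizer ({g} : Set G) ⊓
        H.map (MulAut.conj (x⁻¹)).toMonoidHom := by
      refine Subgroup.mem_inf.2 ⟨?_, ?_⟩
      · rw [Subgroup.mem_centralizer_singleton_iff]
        calc x⁻¹ * k * x * g = x⁻¹ * (k * (x * g * x⁻¹)) * x := by group
          _ = x⁻¹ * ((x * g * x⁻¹) * k) * x := by rw [hgk]
          _ = g * (x⁻¹ * k * x) := by group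
      · refine ⟨k, hk, ?_⟩
        simp
    rw [hbot, Subgroup.mem_bot] at this
    apply hk1
    calc k = x * (x⁻¹ * k * x) * x⁻¹ := by group
      _ = 1 := by rw [this]; group
  have h3 := hone g hgZ 1 x⁻¹ h1 h2
  rw [Subgroup.mem_set_normalizer_iff]
  intro u
  have h4 : H.map (MulAut.conj (1 : G)).toMonoidHom = H := by
    ext v
    simp
  rw [h4] at h3
  constructor
  · intro hu
    have : u ∈ H.map (MulAut.conj (x⁻¹)).toMonoidHom := by rw [← h3]; exact hu
    obtain ⟨w, hw, rfl⟩ := this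
    have : x * ((MulAut.conj x⁻¹).toMonoidHom w) * x⁻¹ = w := by
      simp
      group
    rw [SetLike.mem_coe, this]
    exact hw
  · intro hu
    have : u = (MulAut.conj x⁻¹).toMonoidHom (x * u * x⁻¹) := by
      simp
      group
    rw [this, SetLike.mem_coe, h3]
    exact ⟨_, hu, rfl⟩

theorem ss_le_normalizer {H : Subgroup G} (hone : OneConj H) {g : G} (hg : g ∈ SS H) :
    g ∈ Subgroup.normalizer (H : Set G) := by
  by_cases hz : g ∈ Subgroup.center G
  · exact Subgroup.center_le_normalizer _ hz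
  · exact ss_conj hone hg hz (by simpa using hg)

theorem mul_mem_ss {H : Subgroup G} (hab : ∀ a ∈ H, ∀ b ∈ H, a * b = b * a) {g k : G}
    (hg : g ∈ SS H) (hk : k ∈ H) : g * k ∈ SS H := by
  obtain ⟨h, hh, hh1, hgh⟩ := hg
  refine ⟨h, hh, hh1, ?_⟩
  rw [mul_assoc, hab k hk h hh, ← mul_assoc, hgh, mul_assoc]

theorem center_mul_mem_ss {H : Subgroup G} (hab : ∀ a ∈ H, ∀ b ∈ H, a * b = b * a)
    (hne : H ≠ ⊥) {z k : G} (hz : z ∈ Subgroup.center G) (hk : k ∈ H) : z * k ∈ SS H := by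
  obtain ⟨h, hh, hh1⟩ := H.bot_or_exists_ne_one.resolve_left hne
  refine ⟨h, hh, hh1, ?_⟩
  rw [mul_assoc, hab k hk h hh, ← mul_assoc, (Subgroup.mem_center_iff.mp hz h).symm, mul_assoc]

theorem ss_normalizer_conj {H : Subgroup G} {g y : G} (hg : g ∈ SS H)
    (hy : y ∈ Subgroup.normalizer (H : Set G)) : y * g * y⁻¹ ∈ SS H := by
  obtain ⟨h, hh, hh1, hgh⟩ := hg
  refine ⟨y * h * y⁻¹, (Subgroup.mem_set_normalizer_iff.mp hy h).mp hh, ?_, ?_⟩
  · intro h0
    apply hh1
    have : h = y⁻¹ * (y * h * y⁻¹) * y := by group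
    rw [this, h0]
    group
  · calc y * g * y⁻¹ * (y * h * y⁻¹) = y * (g * h) * y⁻¹ := by group
      _ = y * (h * g) * y⁻¹ := by rw [hgh]
      _ = y * h * y⁻¹ * (y * g * y⁻¹) := by group

/-- Off the set, each element of a coset `yH` is `H`-conjugate to `y`. -/
theorem exists_conj_of_not_mem {H : Subgroup G} [Finite H] {y : G}
    (hy : y ∈ Subgroup.normalizer (H : Set G)) (hS : y ∉ SS H) (k : G) (hk : k ∈ H) :
    ∃ u ∈ H, u * y * u⁻¹ = y * k := by
  have hm : ∀ u : H, y⁻¹ * u * y * (u : G)⁻¹ ∈ H := by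
    intro u
    refine H.mul_mem ?_ (H.inv_mem u.2)
    have h1 := (Subgroup.mem_set_normalizer_iff.mp ((Subgroup.normalizer (H : Set G)).inv_mem hy) u).mp u.2
    simpa using h1
  let φ : H → H := fun u => ⟨y⁻¹ * u * y * (u : G)⁻¹, hm u⟩
  have hinj : Function.Injective φ := by
    intro u v huv
    have h1 : y⁻¹ * u * y * (u : G)⁻¹ = y⁻¹ * v * y * (v : G)⁻¹ := congrArg Subtype.val huv
    have h2 : (v : G)⁻¹ * u * y = y * ((v : G)⁻¹ * u) := by
      have h3 : (u : G) * y * (u : G)⁻¹ = v * y * (v : G)⁻¹ := by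
        have := congrArg (fun t => y * t) h1
        simpa [mul_assoc] using this
      calc (v : G)⁻¹ * u * y = (v : G)⁻¹ * ((u : G) * y * (u : G)⁻¹) * u := by group
        _ = (v : G)⁻¹ * (v * y * (v : G)⁻¹) * u := by rw [h3]
        _ = y * ((v : G)⁻¹ * u) := by group
    by_contra hne
    apply hS
    refine ⟨(v : G)⁻¹ * u, H.mul_mem (H.inv_mem v.2) u.2, ?_, h2.symm⟩
    intro h0
    apply hne
    apply Subtype.ext
    have : (u : G) = v := by
      have h5 : (u : G) = v * ((v : G)⁻¹ * u) := by group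
      rw [h5, h0, mul_one]
    exact this
  have hsurj : Function.Surjective φ := Finite.injective_iff_surjective.mp hinj
  obtain ⟨u, hu⟩ := hsurj ⟨k, hk⟩
  have h1 : y⁻¹ * u * y * (u : G)⁻¹ = k := congrArg Subtype.val hu
  refine ⟨u, u.2, ?_⟩
  rw [← h1]
  group

/-- A central element acts as a scalar of norm one. -/
theorem center_scalar {χ : G → ℂ} [Finite G] (hχ : IsIrrCharacter G χ) {z : G}
    (hz : z ∈ Subgroup.center G) :
    ∃ ω : ℂ, ‖ω‖ = 1 ∧ ∀ g, χ (z * g) = ω * χ g := by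
  obtain ⟨n, ρ, hρ, rfl⟩ := hχ
  obtain ⟨c, hc⟩ := schur_scalar ρ hρ (ρ z) (by
    intro g v
    rw [← Module.End.mul_apply, ← Module.End.mul_apply, ← map_mul, ← map_mul,
      Subgroup.mem_center_iff.mp hz g])
  have hV : Nontrivial (Fin n → ℂ) := ((isIrreducible_iff ρ).mp hρ).1
  have hord : IsOfFinOrder z := isOfFinOrder_of_finite z
  have hpow : ρ (z ^ orderOf z) = c ^ orderOf z • 1 := by
    rw [map_pow, hc, smul_pow, one_pow]
  have hc1 : c ^ orderOf z = 1 := by
    rw [pow_orderOf_eq_one, map_one] at hpow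
    obtain ⟨v, hv⟩ := exists_ne (0 : Fin n → ℂ)
    have := congrArg (fun T : Module.End ℂ (Fin n → ℂ) => T v) hpow
    simp only [Module.End.one_apply, LinearMap.smul_apply] at this
    have h2 : (c ^ orderOf z - 1) • v = 0 := by
      rw [sub_smul, one_smul, ← this, sub_self]
    rcases smul_eq_zero.mp h2 with h3 | h3
    · exact sub_eq_zero.mp h3
    · exact absurd h3 hv
  refine ⟨c, ?_, ?_⟩
  · exact Complex.norm_eq_one_of_pow_eq_one hc1 (orderOf_pos_iff.mpr hord).ne'
  · intro g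
    simp only [Representation.character, map_mul, hc]
    rw [smul_mul_assoc, one_mul, map_smul, smul_eq_mul]

section PartOne

variable [Fintype G]

/-- Sums over a set inside a subgroup. -/
theorem sum_ite_subgroup {M : Subgroup G} [Fintype M] {S : Set G} (hS : ∀ g ∈ S, g ∈ M)
    [DecidablePred (· ∈ S)] (φ : G → ℝ) :
    ∑ y : M, (if (y : G) ∈ S then φ y else 0) = ∑ g : G, (if g ∈ S then φ g else 0) := by
  classical
  have h1 : ∑ g ∈ Finset.univ.filter (· ∈ M), (if g ∈ S then φ g else 0) =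
      ∑ y : M, (if (y : G) ∈ S then φ y else 0) :=
    Finset.sum_subtype _ (by simp) (fun g : G => if g ∈ S then φ g else 0)
  rw [← h1]
  refine Finset.sum_subset (Finset.filter_subset _ _) fun g _ hg => ?_
  have : g ∉ M := by simpa using hg
  rw [if_neg (fun h => this (hS g h))]

/-- Counting with a subset which is trivial-intersection with respect to `M`. -/
theorem ti_count {M : Subgroup G} [Fintype M] {T U : Set G} [DecidablePred (· ∈ T)]
    [DecidablePred (· ∈ U)]
    (hT : ∀ g ∈ T, ∀ x, x * g * x⁻¹ ∈ T → x ∈ M) (hU : ∀ g ∈ T, ∀ x, x * g * x⁻¹ ∈ U)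
    (φ : G → ℝ) (hφ : ∀ g, 0 ≤ φ g) (hcl : ∀ g x, φ (x * g * x⁻¹) = φ g) :
    (Nat.card G : ℝ) * ∑ g, (if g ∈ T then φ g else 0) ≤
      (Nat.card M : ℝ) * ∑ g, (if g ∈ U then φ g else 0) := by
  classical
  have h1 : ∀ x : G, ∑ g, (if g ∈ T then φ g else 0) =
      ∑ u, (if x⁻¹ * u * x ∈ T then φ u else 0) := by
    intro x
    rw [← Equiv.sum_comp (MulAut.conj x⁻¹).toEquiv]
    refine Finset.sum_congr rfl fun u _ => ?_
    have hc : (MulAut.conj x⁻¹).toEquiv u = x⁻¹ * u * x := by simp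
    rw [hc]
    split_ifs with h
    · have := hcl (x⁻¹ * u * x) x
      rw [← this]
      congr 1
      group
    · rfl
  have h2 : (Nat.card G : ℝ) * ∑ g, (if g ∈ T then φ g else 0) =
      ∑ u, φ u * ((Finset.univ.filter (fun x : G => x⁻¹ * u * x ∈ T)).card : ℝ) := by
    have h3 : (Nat.card G : ℝ) * ∑ g, (if g ∈ T then φ g else 0) =
        ∑ x : G, ∑ g, (if g ∈ T then φ g else 0) := by
      rw [Finset.sum_const, Finset.card_univ, nsmul_eq_mul, Nat.card_eq_fintype_card]
    rw [h3, Finset.sum_congr rfl (fun x _ => h1 x), Finset.sum_comm]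
    refine Finset.sum_congr rfl fun u _ => ?_
    rw [← Finset.sum_filter, Finset.sum_const, nsmul_eq_mul, mul_comm]
  rw [h2, Finset.mul_sum]
  refine Finset.sum_le_sum fun u _ => ?_
  by_cases hne : ∃ x₀, x₀⁻¹ * u * x₀ ∈ T
  · obtain ⟨x₀, hx₀⟩ := hne
    have hu : u ∈ U := by
      have := hU _ hx₀ x₀
      have h5 : x₀ * (x₀⁻¹ * u * x₀) * x₀⁻¹ = u := by group
      rwa [h5] at this
    rw [if_pos hu]
    have hcard : (Finset.univ.filter (fun x : G => x⁻¹ * u * x ∈ T)).card ≤ Nat.card M := by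
      rw [Nat.card_eq_fintype_card, ← Finset.card_univ]
      have hsub : Finset.univ.filter (fun x : G => x⁻¹ * u * x ∈ T) ⊆
          (Finset.univ : Finset M).image (fun m : M => x₀ * (m : G)⁻¹) := by
        intro x hx
        have hx' : x⁻¹ * u * x ∈ T := by simpa using hx
        have hm : x⁻¹ * x₀ ∈ M := by
          apply hT _ hx₀
          have : x⁻¹ * x₀ * (x₀⁻¹ * u * x₀) * (x⁻¹ * x₀)⁻¹ = x⁻¹ * u * x := by group
          rwa [this]
        refine Finset.mem_image.mpr ⟨⟨x⁻¹ * x₀, hm⟩, Finset.mem_univ _, ?_⟩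
        simp
      exact (Finset.card_le_card hsub).trans Finset.card_image_le
    have h6 : ((Finset.univ.filter (fun x : G => x⁻¹ * u * x ∈ T)).card : ℝ) ≤ (Nat.card M : ℝ) := by
      exact_mod_cast hcard
    calc φ u * _ ≤ φ u * (Nat.card M : ℝ) := mul_le_mul_of_nonneg_left h6 (hφ u)
      _ = _ := mul_comm _ _
  · have h7 : Finset.univ.filter (fun x : G => x⁻¹ * u * x ∈ T) = ∅ := by
      apply Finset.filter_eq_empty_iff.mpr
      intro x _ hx
      exact hne ⟨x, hx⟩
    rw [h7]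
    simp only [Finset.card_empty, Nat.cast_zero, mul_zero]
    split_ifs
    · exact mul_nonneg (by positivity) (hφ u)
    · simp

/-- First part: the degree bound. -/
theorem part_one (H : Subgroup G) [Fintype H] (hab : ∀ a ∈ H, ∀ b ∈ H, a * b = b * a)
    (hZ : H ⊓ Subgroup.center G = ⊥) (hone : OneConj H) (χ : G → ℂ) (hχ : IsIrrCharacter G χ)
    (hker : ∃ h ∈ H, χ h ≠ χ 1) :
    (Nat.card H : ℝ) * Complex.normSq (classInner (fun h : H => χ h) (fun _ => 1)) <
      (χ 1).re ^ 2 := by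
  classical
  have hχc := IsIrrCharacter.isCharacter hχ
  have hne : H ≠ ⊥ := by
    rintro rfl
    obtain ⟨h, hh, hne⟩ := hker
    rw [Subgroup.mem_bot] at hh
    exact hne (by rw [hh])
  set M := Subgroup.normalizer (H : Set G) with hMdef
  letI : Fintype M := Fintype.ofFinite _
  have hHM : ∀ u ∈ H, u ∈ M := fun u hu => Subgroup.le_normalizer hu
  let ι : H → M := fun u => ⟨u, hHM u u.2⟩
  let τ : M → ℂ := fun y => (Nat.card H : ℂ)⁻¹ * ∑ u : H, χ ((M.subtype y) * u)
  have hH0 : (Nat.card H : ℂ) ≠ 0 := by exact_mod_cast Nat.card_pos.ne'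
  have hτ : IsCharacter M τ := avg_isCharacter M.subtype H
    (fun γ u hu => (Subgroup.mem_set_normalizer_iff.mp γ.2 u).mp hu) hχc
  have hχM : IsCharacter M (fun y : M => χ y) := IsCharacter.restrict M hχc
  let F : M → ℂ := (fun y : M => χ y) - τ
  have hF : IsGeneralizedCharacter M F := ⟨_, _, hχM, hτ, rfl⟩
  have hFa : ∀ y, F y = χ y - τ y := fun y => rfl
  -- `τ` is constant on `H`-cosets
  have hτu : ∀ (y : M) (u : H), τ (y * ι u) = τ y := by
    intro y u
    change (Nat.card H : ℂ)⁻¹ * ∑ v : H, χ ((y : G) * u * v) =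
      (Nat.card H : ℂ)⁻¹ * ∑ v : H, χ ((y : G) * v)
    congr 1
    rw [← Equiv.sum_comp (Equiv.mulLeft u) (fun v : H => χ ((y : G) * v))]
    refine Finset.sum_congr rfl fun v _ => ?_
    simp [mul_assoc]
  have hcardH : ∑ _u : H, (1 : ℂ) = (Nat.card H : ℂ) := by
    simp [Nat.card_eq_fintype_card]
  have hsumχ : ∀ y : M, ∑ u : H, χ ((y : G) * u) = (Nat.card H : ℂ) * τ y := by
    intro y
    change _ = (Nat.card H : ℂ) * ((Nat.card H : ℂ)⁻¹ * ∑ u : H, χ ((y : G) * u))
    rw [← mul_assoc, mul_inv_cancel₀ hH0, one_mul]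
  have hsumF : ∀ y : M, ∑ u : H, F (y * ι u) = 0 := by
    intro y
    have h1 : ∀ u : H, F (y * ι u) = χ ((y : G) * u) - τ y := by
      intro u
      rw [hFa, hτu]
      rfl
    rw [Finset.sum_congr rfl (fun u _ => h1 u), Finset.sum_sub_distrib, hsumχ,
      Finset.sum_const, Finset.card_univ, nsmul_eq_mul, Nat.card_eq_fintype_card, sub_self]
  have hortho : ∑ y : M, τ y * conj (F y) = 0 := by
    have h1 : ∀ u : H, ∑ y : M, τ y * conj (F y) = ∑ y : M, τ y * conj (F (y * ι u)) := by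
      intro u
      rw [← Equiv.sum_comp (Equiv.mulRight (ι u))]
      refine Finset.sum_congr rfl fun y _ => ?_
      simp only [Equiv.coe_mulRight]
      rw [hτu]
    have h2 : (Nat.card H : ℂ) * ∑ y : M, τ y * conj (F y) = 0 := by
      have h3 : (Nat.card H : ℂ) * ∑ y : M, τ y * conj (F y) =
          ∑ u : H, ∑ y : M, τ y * conj (F (y * ι u)) := by
        rw [Finset.sum_congr rfl (fun u _ => (h1 u).symm), Finset.sum_const, Finset.card_univ,
          nsmul_eq_mul, Nat.card_eq_fintype_card]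
      rw [h3, Finset.sum_comm]
      refine Finset.sum_eq_zero fun y _ => ?_
      rw [← Finset.mul_sum, ← map_sum, hsumF, map_zero, mul_zero]
    exact (mul_eq_zero.mp h2).resolve_left hH0
  have hFzero : ∀ y : M, (y : G) ∉ SS H → F y = 0 := by
    intro y hy
    have h1 : ∀ u : H, χ ((y : G) * u) = χ y := by
      intro u
      obtain ⟨v, _, hv⟩ := exists_conj_of_not_mem y.2 hy u u.2
      rw [← hv, IsCharacter.conj_apply hχc]
    rw [hFa, sub_eq_zero]
    change _ = (Nat.card H : ℂ)⁻¹ * ∑ u : H, χ ((y : G) * u)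
    rw [Finset.sum_congr rfl (fun u _ => h1 u), Finset.sum_const, Finset.card_univ, nsmul_eq_mul,
      ← Nat.card_eq_fintype_card, ← mul_assoc, inv_mul_cancel₀ hH0, one_mul]
  -- the splitting of the sum of squares
  have hK3 : ∑ y : M, (if (y : G) ∈ SS H then Complex.normSq (χ y) else 0) =
      ∑ y : M, (if (y : G) ∈ SS H then Complex.normSq (τ y) else 0) +
        ∑ y : M, Complex.normSq (F y) := by
    have h1 : ∀ y : M, (if (y : G) ∈ SS H then Complex.normSq (χ y) else 0) =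
        (if (y : G) ∈ SS H then Complex.normSq (τ y) else 0) + Complex.normSq (F y) +
          2 * (τ y * conj (F y)).re := by
      intro y
      by_cases hy : (y : G) ∈ SS H
      · rw [if_pos hy, if_pos hy]
        have h2 : χ y = τ y + F y := by rw [hFa]; ring
        rw [h2, Complex.normSq_add]
      · rw [if_neg hy, if_neg hy, hFzero y hy]
        simp
    rw [Finset.sum_congr rfl (fun y _ => h1 y), Finset.sum_add_distrib, Finset.sum_add_distrib,
      ← Finset.mul_sum, ← Complex.re_sum, hortho]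
    simp
  -- the norm of `F`
  have hFne : F ≠ 0 := by
    intro h0
    obtain ⟨h, hh, hne⟩ := hker
    apply hne
    have h1 : F (ι ⟨h, hh⟩) = 0 := by rw [h0]; rfl
    have h2 : F 1 = 0 := by rw [h0]; rfl
    rw [hFa] at h1 h2
    have h3 : τ (ι ⟨h, hh⟩) = τ 1 := by
      have := hτu 1 ⟨h, hh⟩
      rwa [one_mul] at this
    have h4 : χ (ι ⟨h, hh⟩ : M) = τ (ι ⟨h, hh⟩) := sub_eq_zero.mp h1
    have h5 : χ ((1 : M) : G) = τ 1 := sub_eq_zero.mp h2
    have h6 : ((ι ⟨h, hh⟩ : M) : G) = h := rfl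
    rw [h6] at h4
    rw [h4, h3, ← h5]
    rfl
  have hK4 : (Nat.card M : ℝ) ≤ ∑ y : M, Complex.normSq (F y) := by
    obtain ⟨m, hm⟩ := classInner_isGeneralized_int hF hF
    have hm0 : m ≠ 0 := by
      rintro rfl
      apply hFne
      rw [← classInner_self_eq_zero, hm]
      simp
    have h1 : (m : ℂ) = ((Nat.card M : ℝ)⁻¹ * ∑ y : M, Complex.normSq (F y) : ℝ) := by
      rw [← hm, classInner_def]
      push_cast
      congr 1
      refine Finset.sum_congr rfl fun y _ => ?_
      rw [Complex.mul_conj]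
    have h2 : (m : ℝ) = (Nat.card M : ℝ)⁻¹ * ∑ y : M, Complex.normSq (F y) := by
      exact_mod_cast h1
    have hMpos : (0 : ℝ) < Nat.card M := by exact_mod_cast Nat.card_pos
    have h3 : 0 ≤ (m : ℝ) := by
      rw [h2]
      exact mul_nonneg (by positivity) (Finset.sum_nonneg fun y _ => Complex.normSq_nonneg _)
    have h4 : 1 ≤ m := by
      have : 0 ≤ m := by exact_mod_cast h3
      omega
    have h5 : (1 : ℝ) ≤ m := by exact_mod_cast h4
    rw [h2] at h5
    have h6 := mul_le_mul_of_nonneg_left h5 hMpos.le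
    rwa [mul_one, ← mul_assoc, mul_inv_cancel₀ hMpos.ne', one_mul] at h6
  -- central part
  set c := classInner (fun h : H => χ h) (fun _ => 1) with hc
  have hcdef : c = (Nat.card H : ℂ)⁻¹ * ∑ u : H, χ u := by
    simp [hc, classInner]
  let Z := Subgroup.center G
  letI : Fintype Z := Fintype.ofFinite _
  have hZM : ∀ z ∈ Z, z ∈ M := fun z hz => Subgroup.center_le_normalizer _ hz
  have hτZ : ∀ (z : Z) (u : H), Complex.normSq (τ ⟨z * u, M.mul_mem (hZM z z.2) (hHM u u.2)⟩) =
      Complex.normSq c := by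
    intro z u
    have h1 := hτu ⟨z, hZM z z.2⟩ u
    have h2 : (⟨z * u, M.mul_mem (hZM z z.2) (hHM u u.2)⟩ : M) = ⟨z, hZM z z.2⟩ * ι u := rfl
    rw [h2, h1]
    obtain ⟨ω, hω, hω'⟩ := center_scalar hχ z.2
    have h3 : τ ⟨z, hZM z z.2⟩ = ω * c := by
      change (Nat.card H : ℂ)⁻¹ * ∑ v : H, χ ((z : G) * v) = _
      rw [Finset.sum_congr rfl (fun (v : H) _ => hω' (v : G)), ← Finset.mul_sum, hcdef]
      ring
    rw [h3, Complex.normSq_mul, Complex.normSq_eq_norm_sq ω, hω]
    simp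
  have hK5 : (Nat.card Z : ℝ) * Nat.card H * Complex.normSq c ≤
      ∑ y : M, (if (y : G) ∈ SS H then Complex.normSq (τ y) else 0) := by
    let f : Z × H → M := fun p => ⟨p.1 * p.2, M.mul_mem (hZM p.1 p.1.2) (hHM p.2 p.2.2)⟩
    have hf : Function.Injective f := by
      rintro ⟨z, u⟩ ⟨z', u'⟩ h
      have h1 : (z : G) * u = z' * u' := congrArg Subtype.val h
      have h2 : (z' : G)⁻¹ * z = u' * (u : G)⁻¹ := by
        calc (z' : G)⁻¹ * z = (z' : G)⁻¹ * ((z : G) * u) * (u : G)⁻¹ := by group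
          _ = (z' : G)⁻¹ * (z' * u') * (u : G)⁻¹ := by rw [h1]
          _ = u' * (u : G)⁻¹ := by group
      have h3 : u' * (u : G)⁻¹ ∈ H ⊓ Z := by
        refine Subgroup.mem_inf.2 ⟨H.mul_mem u'.2 (H.inv_mem u.2), ?_⟩
        rw [← h2]
        exact Z.mul_mem (Z.inv_mem z'.2) z.2
      rw [hZ, Subgroup.mem_bot] at h3
      rw [h3] at h2
      have h4 : (u' : G) = u := mul_inv_eq_one.mp h3
      have h5 : (z' : G) = z := inv_mul_eq_one.mp h2
      have h6 : z = z' := Subtype.ext h5.symm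
      have h7 : u = u' := Subtype.ext h4.symm
      rw [h6, h7]
    have h1 : ∑ p : Z × H, Complex.normSq (τ (f p)) =
        (Nat.card Z : ℝ) * Nat.card H * Complex.normSq c := by
      rw [Finset.sum_congr rfl (fun p _ => hτZ p.1 p.2), Finset.sum_const, Finset.card_univ,
        nsmul_eq_mul, Fintype.card_prod, Nat.card_eq_fintype_card, Nat.card_eq_fintype_card]
      push_cast
      ring
    rw [← h1, ← Finset.sum_image (f := fun y => Complex.normSq (τ y)) (s := Finset.univ) (g := f)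
      (fun a _ b _ h => hf h), ← Finset.sum_filter]
    refine Finset.sum_le_sum_of_subset_of_nonneg ?_ (fun _ _ _ => Complex.normSq_nonneg _)
    intro y hy
    obtain ⟨p, _, rfl⟩ := Finset.mem_image.mp hy
    refine Finset.mem_filter.mpr ⟨Finset.mem_univ _, center_mul_mem_ss hab hne p.1.2 p.2.2⟩
  -- the global count
  let N : G → ℝ := fun g => Complex.normSq (χ g)
  have hSM : ∀ g ∈ SS H, g ∈ M := fun g hg => ss_le_normalizer hone hg
  have hA := sum_ite_subgroup hSM N
  have hN : ∑ g, N g = (Nat.card G : ℝ) := by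
    have h1 := classInner_irr_self hχ
    rw [classInner_def] at h1
    have hG0 : (Nat.card G : ℂ) ≠ 0 := by exact_mod_cast Nat.card_pos.ne'
    have h2 : ∑ g, χ g * conj (χ g) = (Nat.card G : ℂ) := by
      field_simp at h1
      exact h1
    have h3 : ((∑ g, N g : ℝ) : ℂ) = (Nat.card G : ℂ) := by
      rw [← h2]
      push_cast
      refine Finset.sum_congr rfl fun g _ => ?_
      rw [Complex.mul_conj]
    exact_mod_cast h3
  have hone1 : χ 1 = ((χ 1).re : ℂ) := by
    rw [map_one_eq_charDegree hχc]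
    simp
  have hNZ : ∀ z ∈ Z, N z = (χ 1).re ^ 2 := by
    intro z hz
    obtain ⟨ω, hω, hω'⟩ := center_scalar hχ hz
    have h1 := hω' 1
    rw [mul_one] at h1
    change Complex.normSq (χ z) = _
    rw [h1, Complex.normSq_mul, Complex.normSq_eq_norm_sq ω, hω, hone1, Complex.normSq_ofReal]
    simp [sq]
  have hZsum : ∑ g, (if g ∈ (Z : Set G) then N g else 0) = (Nat.card Z : ℝ) * (χ 1).re ^ 2 := by
    have h1 : ∑ g ∈ Finset.univ.filter (· ∈ Z), N g = ∑ y : Z, N y :=
      Finset.sum_subtype _ (by simp) N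
    rw [← Finset.sum_filter]
    simp only [SetLike.mem_coe]
    rw [h1, Finset.sum_congr rfl (fun (y : Z) _ => hNZ y y.2), Finset.sum_const, Finset.card_univ,
      nsmul_eq_mul, Nat.card_eq_fintype_card]
  let T : Set G := {g | g ∈ SS H ∧ g ∉ Z}
  let U : Set G := {g | g ∉ Z}
  have hcount := ti_count (M := M) (T := T) (U := U)
    (fun g hg x hx => ss_conj hone hg.1 hg.2 hx.1)
    (fun g hg x hx => hg.2 (by
      have h2 := Subgroup.mem_center_iff.mp hx x
      have h1 : g = x * g * x⁻¹ := by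
        calc g = x⁻¹ * (x * g * x⁻¹ * x) := by group
          _ = x⁻¹ * (x * (x * g * x⁻¹)) := by rw [← h2]
          _ = x * g * x⁻¹ := by group
      rw [h1]
      exact hx))
    N (fun g => Complex.normSq_nonneg _)
    (fun g x => by
      change Complex.normSq (χ (x * g * x⁻¹)) = _
      rw [IsCharacter.conj_apply hχc])
  have hTsum : ∑ g, (if g ∈ T then N g else 0) =
      ∑ g, (if g ∈ SS H then N g else 0) - (Nat.card Z : ℝ) * (χ 1).re ^ 2 := by
    rw [← hZsum, ← Finset.sum_sub_distrib]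
    refine Finset.sum_congr rfl fun g _ => ?_
    by_cases hgZ : g ∈ Z
    · have hg : g ∈ SS H := by
        have := center_mul_mem_ss hab hne hgZ H.one_mem
        rwa [mul_one] at this
      have h1 : g ∉ T := fun h => h.2 hgZ
      have h2 : g ∈ (Z : Set G) := hgZ
      rw [if_neg h1, if_pos hg, if_pos h2, sub_self]
    · have h2 : g ∉ (Z : Set G) := hgZ
      rw [if_neg h2, sub_zero]
      by_cases hg : g ∈ SS H
      · have hT' : g ∈ T := ⟨hg, hgZ⟩
        rw [if_pos hg, if_pos hT']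
      · have hT' : g ∉ T := fun h => hg h.1
        rw [if_neg hg, if_neg hT']
  have hUsum : ∑ g, (if g ∈ U then N g else 0) =
      (Nat.card G : ℝ) - (Nat.card Z : ℝ) * (χ 1).re ^ 2 := by
    rw [← hZsum, ← hN, ← Finset.sum_sub_distrib]
    refine Finset.sum_congr rfl fun g _ => ?_
    by_cases hgZ : g ∈ Z
    · have h1 : g ∉ U := fun h => h hgZ
      have h2 : g ∈ (Z : Set G) := hgZ
      rw [if_neg h1, if_pos h2, sub_self]
    · have h1 : g ∈ U := hgZ
      have h2 : g ∉ (Z : Set G) := hgZ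
      rw [if_pos h1, if_neg h2, sub_zero]
  rw [hTsum, hUsum, ← hA, hK3] at hcount
  -- arithmetic
  have hGpos : (0 : ℝ) < Nat.card G := by exact_mod_cast Nat.card_pos
  have hMpos : (0 : ℝ) < Nat.card M := by exact_mod_cast Nat.card_pos
  have hZpos : (0 : ℝ) < Nat.card Z := by exact_mod_cast Nat.card_pos
  have hnpos : 0 < (χ 1).re := by
    have h1 := charDegree_pos_of_irr hχ
    rw [map_one_eq_charDegree hχc]
    simpa using h1
  set g := (Nat.card G : ℝ)
  set m := (Nat.card M : ℝ)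
  set z := (Nat.card Z : ℝ)
  set h := (Nat.card H : ℝ)
  set c2 := Complex.normSq c
  set n2 := (χ 1).re ^ 2 with hn2
  have hn2pos : 0 < n2 := by positivity
  set B := ∑ y : M, (if (y : G) ∈ SS H then Complex.normSq (τ y) else 0)
  set C := ∑ y : M, Complex.normSq (F y)
  have h1 : g * (z * h * c2 + m - z * n2) ≤ m * (g - z * n2) := by
    refine le_trans (mul_le_mul_of_nonneg_left ?_ hGpos.le) hcount
    linarith
  have h2 : g * z * (h * c2) ≤ (g - m) * z * n2 := by nlinarith
  have h3 : g * (h * c2) ≤ (g - m) * n2 := by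
    have h4 : z * (g * (h * c2)) ≤ z * ((g - m) * n2) := by nlinarith
    exact le_of_mul_le_mul_left h4 hZpos
  have h5 : (g - m) * n2 < g * n2 := by nlinarith
  exact lt_of_mul_lt_mul_left (lt_of_le_of_lt h3 h5) hGpos.le

/-- In an abelian group the norm of a character is at least its degree. -/
theorem inner_ge_degree {A : Type u} [Group A] [Fintype A] (hA : ∀ a b : A, a * b = b * a)
    {χ : A → ℂ} (hχ : IsCharacter A χ) :
    ∃ m : ℕ, classInner χ χ = m ∧ charDegree χ ≤ m := by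
  classical
  obtain ⟨c, hc⟩ := character_eq_sum_nat hχ
  have h1 : classInner χ χ = ((∑ ψ : IrrCharacter A, (c ψ) ^ 2 : ℕ) : ℂ) := by
    have h2 := classInner_self_eq_sum_int (fun ψ : IrrCharacter A => (c ψ : ℤ))
    have h3 : χ = ∑ ψ : IrrCharacter A, (((c ψ : ℤ)) : ℂ) • (ψ : A → ℂ) := by
      rw [hc]
      refine Finset.sum_congr rfl fun ψ _ => ?_
      simp
    rw [← h3] at h2
    rw [h2]
    push_cast
    rfl
  refine ⟨_, h1, ?_⟩
  have h4 : χ 1 = ((∑ ψ : IrrCharacter A, c ψ : ℕ) : ℂ) := by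
    rw [hc]
    simp only [Finset.sum_apply, Pi.smul_apply, smul_eq_mul]
    push_cast
    refine Finset.sum_congr rfl fun ψ _ => ?_
    rw [charDegree_eq_one_of_comm hA ψ.2, mul_one]
  rw [charDegree_natCast h4]
  refine Finset.sum_le_sum fun ψ _ => ?_
  exact Nat.le_self_pow (by norm_num) _

/-- Second part: the bound for nonlinear characters. -/
theorem part_two (H : Subgroup G) [Fintype H] (hab : ∀ a ∈ H, ∀ b ∈ H, a * b = b * a)
    (hZ : H ⊓ Subgroup.center G = ⊥) (hone : OneConj H) (χ : G → ℂ) (hχ : IsIrrCharacter G χ)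
    (hne1 : χ 1 ≠ 1) (hnorm : ∀ M : Subgroup G, M.Normal → H ≤ M → M = ⊤) :
    (Nat.card H : ℝ) < (1 + (χ 1).re) ^ 2 := by
  classical
  by_contra hcon
  push Not at hcon
  have hχc := IsIrrCharacter.isCharacter hχ
  set n := charDegree χ with hn
  have hn1 : χ 1 = (n : ℂ) := map_one_eq_charDegree hχc
  have hnre : (χ 1).re = n := by rw [hn1]; simp
  rw [hnre] at hcon
  have hnpos : 0 < n := charDegree_pos_of_irr hχ
  have hn2 : 2 ≤ n := by
    have : n ≠ 1 := by
      intro h
      apply hne1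
      rw [hn1, h]
      simp
    omega
  let Θ : G → ℂ := fun g => χ g * conj (χ g)
  have hΘ : IsCharacter G Θ := IsCharacter.mul hχc (IsCharacter.conj_char hχc)
  choose b hb using fun ψ : IrrCharacter G =>
    classInner_isCharacter_nat hΘ (IsIrrCharacter.isCharacter ψ.2)
  have hexp : ∀ g, Θ g = ∑ ψ : IrrCharacter G, (b ψ : ℂ) * (ψ : G → ℂ) g := by
    intro g
    have h1 := congrFun (classFunction_eq_sum Θ (IsCharacter.isClassFunction hΘ)) g
    rw [h1]
    simp only [Finset.sum_apply, Pi.smul_apply, smul_eq_mul, hb]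
  choose e he using fun ψ : IrrCharacter G =>
    classInner_isCharacter_nat (IsCharacter.restrict H (IsIrrCharacter.isCharacter ψ.2))
      (IsCharacter.one (G := H))
  have hedef : ∀ ψ : IrrCharacter G, (e ψ : ℂ) = (Nat.card H : ℂ)⁻¹ * ∑ h : H, (ψ : G → ℂ) h := by
    intro ψ
    rw [← he ψ]
    simp [classInner]
  let d : IrrCharacter G → ℕ := fun ψ => charDegree (ψ : G → ℂ)
  have hd : ∀ ψ : IrrCharacter G, (ψ : G → ℂ) 1 = (d ψ : ℂ) := fun ψ =>
    map_one_eq_charDegree (IsIrrCharacter.isCharacter ψ.2)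
  have hsum1 : n ^ 2 = ∑ ψ, b ψ * d ψ := by
    have h1 := hexp 1
    have h2 : Θ 1 = ((n ^ 2 : ℕ) : ℂ) := by
      change χ 1 * conj (χ 1) = _
      rw [hn1]
      simp [sq]
    rw [h2, Finset.sum_congr rfl (fun ψ _ => by rw [hd ψ])] at h1
    exact_mod_cast h1
  have hHab : ∀ a b : H, a * b = b * a := fun a b => Subtype.ext (hab a a.2 b b.2)
  obtain ⟨A, hA, hnA⟩ := inner_ge_degree hHab (IsCharacter.restrict H hχc)
  have hsum2 : A = ∑ ψ, b ψ * e ψ := by
    have h1 : (A : ℂ) = ((∑ ψ, b ψ * e ψ : ℕ) : ℂ) := by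
      rw [← hA, classInner_def]
      push_cast
      simp only [hedef]
      have h2 : ∀ h : H, (fun h : H => χ h) h * conj ((fun h : H => χ h) h) =
          ∑ ψ : IrrCharacter G, (b ψ : ℂ) * (ψ : G → ℂ) h := fun h => hexp h
      rw [Finset.sum_congr rfl (fun h _ => h2 h), Finset.mul_sum]
      simp only [Finset.mul_sum]
      rw [Finset.sum_comm]
      refine Finset.sum_congr rfl fun ψ _ => Finset.sum_congr rfl fun h _ => ?_
      ring
    exact_mod_cast h1
  have hnA' : n ≤ A := by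
    have h1 : charDegree (fun h : H => χ h) = n := charDegree_natCast (χ := fun h : H => χ h) hn1
    rwa [h1] at hnA
  let triv : IrrCharacter G := ⟨fun _ => 1, isIrrCharacter_one⟩
  have hb1 : b triv = 1 := by
    have h1 : ((b triv : ℕ) : ℂ) = 1 := by
      rw [← hb triv, ← classInner_irr_self hχ]
      simp [classInner, triv, Θ]
    exact_mod_cast h1
  have he1 : e triv = 1 := by
    have h1 : ((e triv : ℕ) : ℂ) = 1 := by
      rw [hedef]
      have hH0 : (Nat.card H : ℂ) ≠ 0 := by exact_mod_cast Nat.card_pos.ne'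
      simp only [triv, Finset.sum_const, Finset.card_univ, nsmul_eq_mul, mul_one]
      rw [← Nat.card_eq_fintype_card, inv_mul_cancel₀ hH0]
    exact_mod_cast h1
  have hd1 : d triv = 1 := by
    have h1 : ((d triv : ℕ) : ℂ) = 1 := by rw [← hd triv]
    exact_mod_cast h1
  have hterm : ∀ ψ : IrrCharacter G, ψ ≠ triv → (n + 1) * e ψ < d ψ := by
    intro ψ hψ
    have hker : ∃ h ∈ H, (ψ : G → ℂ) h ≠ (ψ : G → ℂ) 1 := by
      by_contra hc
      push Not at hc
      obtain ⟨m, ρ, hρ, hψρ⟩ := ψ.2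
      have h1 : ∀ h ∈ H, ρ h = LinearMap.id := by
        intro h hh
        refine (character_eq_finrank_iff ρ h (isOfFinOrder_of_finite h)).mp ?_
        rw [← Representation.char_one ρ, hψρ]
        exact hc h hh
      have h2 : H ≤ MonoidHom.ker ρ := fun h hh => by
        rw [MonoidHom.mem_ker]
        exact h1 h hh
      have h3 := hnorm _ (MonoidHom.normal_ker ρ) h2
      have h4 : ∀ g, ρ g = 1 := by
        intro g
        have : g ∈ MonoidHom.ker ρ := by rw [h3]; trivial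
        exact MonoidHom.mem_ker.mp this
      apply hψ
      apply Subtype.ext
      rw [← hψρ]
      exact irr_trivial_of_ker_top ρ hρ h4
    have h1 := part_one H hab hZ hone ψ ψ.2 hker
    rw [he ψ, hd ψ] at h1
    simp only [Complex.normSq_natCast, Complex.natCast_re] at h1
    have h2 : ((1 + (n : ℝ)) * e ψ) ^ 2 < (d ψ : ℝ) ^ 2 := by
      have h3 : (0 : ℝ) ≤ (e ψ : ℝ) * e ψ := by positivity
      have h4 := mul_le_mul_of_nonneg_right hcon h3
      nlinarith
    have h3 : (1 + (n : ℝ)) * e ψ < d ψ := lt_of_pow_lt_pow_left₀ 2 (by positivity) h2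
    have h4 : ((n + 1) * e ψ : ℕ) < d ψ := by
      have : (((n + 1) * e ψ : ℕ) : ℝ) < (d ψ : ℝ) := by
        push_cast
        linarith
      exact_mod_cast this
    exact h4
  -- sums in the integers
  have h1 := Finset.add_sum_erase Finset.univ (fun ψ => (b ψ : ℤ) * (d ψ : ℤ)) (Finset.mem_univ triv)
  have h2 := Finset.add_sum_erase Finset.univ (fun ψ => (b ψ : ℤ) * (e ψ : ℤ)) (Finset.mem_univ triv)
  simp only [hb1, hd1, he1] at h1 h2
  have hs1 : ((n : ℤ)) ^ 2 = ∑ ψ, (b ψ : ℤ) * (d ψ : ℤ) := by exact_mod_cast hsum1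
  have hs2 : (A : ℤ) = ∑ ψ, (b ψ : ℤ) * (e ψ : ℤ) := by exact_mod_cast hsum2
  rw [← hs1] at h1
  rw [← hs2] at h2
  set S1 := ∑ ψ ∈ Finset.univ.erase triv, (b ψ : ℤ) * (d ψ : ℤ)
  set S2 := ∑ ψ ∈ Finset.univ.erase triv, (b ψ : ℤ) * (e ψ : ℤ)
  have hnZ : (2 : ℤ) ≤ n := by exact_mod_cast hn2
  have hAZ : (n : ℤ) ≤ A := by exact_mod_cast hnA'
  have hS1pos : 0 < S1 := by
    simp only [Nat.cast_one, mul_one] at h1
    nlinarith
  have hex : ∃ ψ ∈ Finset.univ.erase triv, (b ψ : ℤ) * (d ψ : ℤ) ≠ 0 := by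
    by_contra hc
    push Not at hc
    have : S1 = 0 := Finset.sum_eq_zero hc
    omega
  have hlt : ((n : ℤ) + 1) * S2 < S1 := by
    rw [Finset.mul_sum]
    refine Finset.sum_lt_sum ?_ ?_
    · intro ψ hψ
      have h3 := hterm ψ (Finset.ne_of_mem_erase hψ)
      have h4 : ((n : ℤ) + 1) * (e ψ : ℤ) ≤ (d ψ : ℤ) := by exact_mod_cast h3.le
      have h5 : (0 : ℤ) ≤ b ψ := by positivity
      nlinarith
    · obtain ⟨ψ, hψ, hne⟩ := hex
      refine ⟨ψ, hψ, ?_⟩
      have h3 := hterm ψ (Finset.ne_of_mem_erase hψ)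
      have h4 : ((n : ℤ) + 1) * (e ψ : ℤ) < (d ψ : ℤ) := by exact_mod_cast h3
      have h5 : (0 : ℤ) < b ψ := by
        have : (b ψ : ℤ) ≠ 0 := left_ne_zero_of_mul hne
        positivity
      nlinarith
  simp only [Nat.cast_one, mul_one] at h1 h2
  have hS2 : (n : ℤ) - 1 ≤ S2 := by linarith
  nlinarith

end PartOne

end Cfsg.Agent.Lib.FTBound
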