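import Mathlib
import Cfsg.Agent.Lib.FTBound
import Cfsg.Agent.Lib.Char.Monomial

set_option autoImplicit false

open scoped ComplexConjugate Pointwise commutatorElement

namespace Cfsg.Agent.Lib.FTBound

open Cfsg (IsCharacter IsIrrCharacter IrrCharacter IsGeneralizedCharacter classInner
  IsClassFunction)
open Cfsg.Agent.Lib.Char

universe u

section LinearConstituents

variable {G : Type u} [Group G] [Fintype G]

/-- An element on which all the constituents of a faithful character act trivially is trivial. -/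
theorem eq_one_of_constituents {n : ℕ} (ρ : Representation ℂ G (Fin n → ℂ))
    (hρ : Function.Injective ρ) (w : G)
    (h : ∀ ψ : IrrCharacter G, classInner ρ.character (ψ : G → ℂ) ≠ 0 →
      (ψ : G → ℂ) w = (ψ : G → ℂ) 1) : w = 1 := by
  classical
  have hχ : IsCharacter G ρ.character := isCharacter_character ρ
  have h1 : ρ.character w = ρ.character 1 := by
    have hexp := classFunction_eq_sum ρ.character (IsCharacter.isClassFunction hχ)
    have h2 := congrFun hexp w
    have h3 := congrFun hexp 1
    rw [h2, h3]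
    simp only [Finset.sum_apply, Pi.smul_apply, smul_eq_mul]
    refine Finset.sum_congr rfl fun ψ _ => ?_
    by_cases hc : classInner ρ.character (ψ : G → ℂ) = 0
    · rw [hc, zero_mul, zero_mul]
    · rw [h ψ hc]
  have h5 : ρ.character w = (Module.finrank ℂ (Fin n → ℂ) : ℂ) := by
    rw [h1, Representation.char_one]
  have h6 := (character_eq_finrank_iff ρ w (isOfFinOrder_of_finite w)).mp h5
  exact hρ (by rw [h6, map_one]; rfl)

/-- A faithful representation all of whose constituents are linear has abelian image. -/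
theorem comm_of_linear {n : ℕ} (ρ : Representation ℂ G (Fin n → ℂ)) (hρ : Function.Injective ρ)
    (h : ∀ ψ : IrrCharacter G, classInner ρ.character (ψ : G → ℂ) ≠ 0 → (ψ : G → ℂ) 1 = 1)
    (a b : G) : a * b = b * a := by
  have h7 : a * b * a⁻¹ * b⁻¹ = 1 := by
    refine eq_one_of_constituents ρ hρ _ fun ψ hc => ?_
    have h4 := h ψ hc
    obtain ⟨lam, hlam⟩ := exists_hom_of_character_one (IsIrrCharacter.isCharacter ψ.2) h4
    rw [hlam]
    simp only [map_mul, map_inv, map_one]
    have : lam a * lam b * (lam a)⁻¹ * (lam b)⁻¹ = 1 := by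
      rw [mul_comm (lam a) (lam b), mul_assoc (lam b), mul_inv_cancel, mul_one, mul_inv_cancel]
    rw [this]
  have h8 : a * b * a⁻¹ = b := mul_inv_eq_one.mp h7
  exact (eq_mul_inv_iff_mul_eq.mp h8.symm).symm

/-- The sum of the squared absolute values of an irreducible character. -/
theorem sum_normSq_irr {χ : G → ℂ} (hχ : IsIrrCharacter G χ) :
    ∑ g, Complex.normSq (χ g) = (Nat.card G : ℝ) := by
  have h1 := classInner_irr_self hχ
  rw [classInner_def] at h1
  have hG0 : (Nat.card G : ℂ) ≠ 0 := by exact_mod_cast Nat.card_pos.ne'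
  have h2 : ∑ g, χ g * conj (χ g) = (Nat.card G : ℂ) := by
    field_simp at h1
    exact h1
  have h3 : ((∑ g, Complex.normSq (χ g) : ℝ) : ℂ) = (Nat.card G : ℂ) := by
    rw [← h2]
    push_cast
    refine Finset.sum_congr rfl fun g _ => ?_
    rw [Complex.mul_conj]
  exact_mod_cast h3

/-- The number of distinct constituents is at most the degree. -/
theorem card_constituents_le {χ : G → ℂ} (hχ : IsCharacter G χ) (T : Finset (IrrCharacter G))
    (hT : ∀ ψ ∈ T, classInner χ (ψ : G → ℂ) ≠ 0) : T.card ≤ charDegree χ := by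
  classical
  choose c hc using fun ψ : IrrCharacter G =>
    classInner_isCharacter_nat hχ (IsIrrCharacter.isCharacter ψ.2)
  have hexp := congrFun (classFunction_eq_sum χ (IsCharacter.isClassFunction hχ)) 1
  simp only [Finset.sum_apply, Pi.smul_apply, smul_eq_mul, hc] at hexp
  have hd : ∀ ψ : IrrCharacter G, (ψ : G → ℂ) 1 = (charDegree (ψ : G → ℂ) : ℂ) := fun ψ =>
    map_one_eq_charDegree (IsIrrCharacter.isCharacter ψ.2)
  rw [map_one_eq_charDegree hχ, Finset.sum_congr rfl (fun ψ _ => by rw [hd ψ])] at hexp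
  have h1 : charDegree χ = ∑ ψ : IrrCharacter G, c ψ * charDegree (ψ : G → ℂ) := by
    exact_mod_cast hexp
  rw [h1, Finset.card_eq_sum_ones]
  refine le_trans (Finset.sum_le_sum fun ψ hψ => ?_)
    (Finset.sum_le_sum_of_subset (Finset.subset_univ T))
  have h2 : c ψ ≠ 0 := by
    intro h0
    apply hT ψ hψ
    rw [hc, h0]
    simp
  have h3 := charDegree_pos_of_irr ψ.2
  exact Nat.mul_pos (Nat.pos_of_ne_zero h2) h3

end LinearConstituents

section Fixed

variable {K : Type u} [Group K] [Finite K] {p : ℕ} [hp : Fact p.Prime]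

/-- The fixed points of an automorphism. -/
def fixSub (φ : MulAut K) : Subgroup K where
  carrier := {k | φ k = k}
  mul_mem' := by
    intro a b ha hb
    simp only [Set.mem_ofPred_eq] at *
    rw [map_mul, ha, hb]
  one_mem' := map_one φ
  inv_mem' := by
    intro a ha
    simp only [Set.mem_ofPred_eq] at *
    rw [map_inv, ha]

theorem mem_fixSub (φ : MulAut K) (k : K) : k ∈ fixSub φ ↔ φ k = k := Iff.rfl

/-- Invariant subgroups. -/
def PhiInv (φ : MulAut K) (K₁ : Subgroup K) : Prop := ∀ k ∈ K₁, φ k ∈ K₁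

theorem isPGroup_zpowers_of_pow (φ : MulAut K) (a : ℕ) (hφ : φ ^ (p ^ a) = 1) :
    IsPGroup p (Subgroup.zpowers φ) := by
  rintro ⟨_, k, rfl⟩
  refine ⟨a, Subtype.ext ?_⟩
  change (φ ^ k) ^ (p ^ a) = 1
  rw [← zpow_natCast, ← zpow_mul, mul_comm, zpow_mul, zpow_natCast, hφ, one_zpow]

/-- If all the "commutators" lie in the fixed points then `φ` is trivial. -/
theorem fix_of_commutators_fixed (φ : MulAut K) (a : ℕ) (hφ : φ ^ (p ^ a) = 1)
    (hc : Nat.Coprime (Nat.card K) p) (h : ∀ k, (φ k)⁻¹ * k ∈ fixSub φ) (k : K) : φ k = k := by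
  set c := (φ k)⁻¹ * k with hcdef
  have hcf : φ c = c := h k
  have h1 : φ k = k * c⁻¹ := by rw [hcdef]; group
  have h2 : ∀ i : ℕ, (φ ^ i) k = k * (c⁻¹) ^ i := by
    intro i
    induction i with
    | zero => simp
    | succ i ih =>
      rw [pow_succ', MulAut.mul_apply, ih, map_mul, h1, map_pow, map_inv, hcf, pow_succ', mul_assoc]
  have h3 := h2 (p ^ a)
  rw [hφ] at h3
  have h4 : (c⁻¹) ^ (p ^ a) = 1 := by
    have : k = k * (c⁻¹) ^ (p ^ a) := h3
    exact mul_left_cancel (a := k) (by rw [mul_one]; exact this.symm)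
  have h5 : orderOf (c⁻¹) ∣ p ^ a := orderOf_dvd_of_pow_eq_one h4
  have h6 : orderOf (c⁻¹) ∣ Nat.card K := orderOf_dvd_natCard _
  have h7 : Nat.Coprime (p ^ a) (Nat.card K) := (Nat.Coprime.pow_left a hc.symm)
  have h8 : orderOf (c⁻¹) = 1 := Nat.eq_one_of_dvd_coprimes h7 h5 h6
  have h9 : c⁻¹ = 1 := orderOf_eq_one_iff.mp h8
  rw [h1, h9, mul_one]

theorem exists_fixed_sylow (φ : MulAut K) (a : ℕ) (hφ : φ ^ (p ^ a) = 1)
    (hc : Nat.Coprime (Nat.card K) p) (q : ℕ) [Fact q.Prime] :
    ∃ S : Sylow q K, PhiInv φ (S : Subgroup K) := by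
  have hΓ := isPGroup_zpowers_of_pow φ a hφ
  have hnd : ¬ p ∣ Nat.card (Sylow q K) := by
    intro h
    obtain ⟨S⟩ := (inferInstance : Nonempty (Sylow q K))
    have h1 := h.trans (Sylow.card_dvd_index S)
    have h2 := h1.trans (Subgroup.index_dvd_card _)
    have h3 := Nat.Coprime.eq_one_of_dvd (Nat.Coprime.symm hc) h2
    exact hp.out.one_lt.ne' h3
  obtain ⟨S, hS⟩ := hΓ.nonempty_fixed_point_of_prime_not_dvd_card (Sylow q K) hnd
  refine ⟨S, fun k hk => ?_⟩
  have h1 : (⟨φ, Subgroup.mem_zpowers φ⟩ : Subgroup.zpowers φ) • S = S := hS _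
  have h2 : φ • S = S := h1
  have h3 : φ • (S : Subgroup K) = S := by
    have := congrArg (fun T : Sylow q K => (T : Subgroup K)) h2
    simpa [Sylow.pointwise_smul_def] using this
  rw [← h3]
  exact Subgroup.smul_mem_pointwise_smul k φ _ hk

/-- Reduction to `q`-groups. -/
theorem exists_isPGroup_of_fix (φ : MulAut K) (a : ℕ) (hφ : φ ^ (p ^ a) = 1)
    (hc : Nat.Coprime (Nat.card K) p)
    (H1 : ∀ K₁ : Subgroup K, PhiInv φ K₁ → K₁ ≠ ⊤ → K₁ ≤ fixSub φ)
    (hC : fixSub φ ≠ ⊤) : ∃ q : ℕ, q.Prime ∧ IsPGroup q K := by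
  by_contra hno
  push Not at hno
  apply hC
  have hK0 : Nat.card K ≠ 0 := Nat.card_pos.ne'
  have hC0 : Nat.card (fixSub φ) ≠ 0 := Nat.card_pos.ne'
  have hdvd : Nat.card K ∣ Nat.card (fixSub φ) := by
    rw [← Nat.factorization_prime_le_iff_dvd hK0 hC0]
    intro q hq
    haveI : Fact q.Prime := ⟨hq⟩
    obtain ⟨S, hS⟩ := exists_fixed_sylow φ a hφ hc q
    have hne : (S : Subgroup K) ≠ ⊤ := by
      intro h
      apply hno q hq
      intro g
      obtain ⟨k, hk⟩ := S.isPGroup' ⟨g, by rw [h]; trivial⟩
      exact ⟨k, congrArg Subtype.val hk⟩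
    have hle := H1 _ hS hne
    have h1 := Subgroup.card_dvd_of_le hle
    rw [Sylow.card_eq_multiplicity S] at h1
    exact (Nat.Prime.pow_dvd_iff_le_factorization hq hC0).mp h1
  have h2 : Nat.card (fixSub φ) = Nat.card K :=
    Nat.dvd_antisymm (Subgroup.card_subgroup_dvd_card _) hdvd
  exact Subgroup.eq_top_of_card_eq _ h2

/-- Constituents of an invariant character of small degree are invariant. -/
theorem constituent_fixed [Fintype K] (φ : MulAut K) (a : ℕ) (hφ : φ ^ (p ^ a) = 1) {n : ℕ}
    (hn : n < p) {χ : K → ℂ} (hχ : IsCharacter K χ) (hdeg : charDegree χ = n)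
    (hinv : ∀ k, χ (φ k) = χ k) (θ : IrrCharacter K) (hθ : classInner χ (θ : K → ℂ) ≠ 0) (k : K) :
    (θ : K → ℂ) (φ k) = (θ : K → ℂ) k := by
  classical
  let f : IrrCharacter K → IrrCharacter K := fun ψ => ⟨(ψ : K → ℂ) ∘ φ, isIrr_comp_equiv φ ψ.2⟩
  have hf : ∀ ψ : IrrCharacter K, classInner χ (f ψ : K → ℂ) = classInner χ (ψ : K → ℂ) := by
    intro ψ
    have h1 := classInner_comp_equiv φ χ (ψ : K → ℂ)
    have h2 : χ ∘ φ = χ := funext hinv
    rwa [h2] at h1
  have hit : ∀ (i : ℕ) (ψ : IrrCharacter K) (k : K),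
      ((f^[i] ψ : IrrCharacter K) : K → ℂ) k = (ψ : K → ℂ) ((φ ^ i) k) := by
    intro i
    induction i with
    | zero => intro ψ k; simp
    | succ i ih =>
      intro ψ k
      rw [Function.iterate_succ_apply']
      change ((f^[i] ψ : IrrCharacter K) : K → ℂ) (φ k) = _
      rw [ih, pow_succ]
      rfl
  have hfi : ∀ i : ℕ, classInner χ ((f^[i] θ : IrrCharacter K) : K → ℂ) = classInner χ (θ : K → ℂ) := by
    intro i
    induction i with
    | zero => rfl
    | succ i ih => rw [Function.iterate_succ_apply', hf, ih]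
  have hper : Function.IsPeriodicPt f (p ^ a) θ := by
    refine Subtype.ext (funext fun k => ?_)
    rw [hit, hφ]
    rfl
  have hdvd := hper.minimalPeriod_dvd
  obtain ⟨b, _, hmin⟩ := (Nat.dvd_prime_pow hp.out).mp hdvd
  rcases Nat.eq_zero_or_pos b with rfl | hb
  · rw [pow_zero] at hmin
    have hfix : f θ = θ := Function.minimalPeriod_eq_one_iff_isFixedPt.mp hmin
    exact congrFun (congrArg Subtype.val hfix) k
  · exfalso
    have hple : p ≤ Function.minimalPeriod f θ := by
      rw [hmin]
      exact Nat.le_self_pow hb.ne' p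
    let T := (Finset.range p).image (fun i => f^[i] θ)
    have hcard : T.card = p := by
      rw [Finset.card_image_of_injOn, Finset.card_range]
      intro i hi j hj hij
      refine Function.iterate_injOn_Iio_minimalPeriod (f := f) (x := θ) ?_ ?_ hij
      · exact lt_of_lt_of_le (Finset.mem_range.mp hi) hple
      · exact lt_of_lt_of_le (Finset.mem_range.mp hj) hple
    have h1 := card_constituents_le hχ T (by
      intro ψ hψ
      obtain ⟨i, _, rfl⟩ := Finset.mem_image.mp hψ
      rw [hfi]
      exact hθ)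
    omega

/-- The main step: a minimal counterexample does not exist. -/
theorem main_step (φ : MulAut K) (a : ℕ) (hφ : φ ^ (p ^ a) = 1)
    (hc : Nat.Coprime (Nat.card K) p) {n : ℕ} (hn : n + 1 < p)
    (ρ : Representation ℂ K (Fin n → ℂ)) (hρ : Function.Injective ρ)
    (hinv : ∀ k, ρ.character (φ k) = ρ.character k)
    (H1 : ∀ K₁ : Subgroup K, PhiInv φ K₁ → K₁ ≠ ⊤ → K₁ ≤ fixSub φ) : fixSub φ = ⊤ := by
  classical
  letI := Fintype.ofFinite K
  by_contra hC
  obtain ⟨q, hq, hKq⟩ := exists_isPGroup_of_fix φ a hφ hc H1 hC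
  haveI : Fact q.Prime := ⟨hq⟩
  haveI : Group.IsNilpotent K := hKq.isNilpotent
  set C := fixSub φ with hCdef
  have hmemC : ∀ u, φ u ∈ C ↔ u ∈ C := by
    intro u
    constructor
    · intro h
      exact φ.injective h
    · intro h
      have h1 : φ u = u := h
      rw [h1]
      exact h
  -- `C` is normal
  have hCN : Subgroup.normalizer (C : Set K) = ⊤ := by
    by_contra hne
    have hinvN : PhiInv φ (Subgroup.normalizer (C : Set K)) := by
      intro k hk
      rw [Subgroup.mem_set_normalizer_iff] at hk ⊢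
      intro h
      obtain ⟨h₀, rfl⟩ : ∃ h₀, φ h₀ = h := ⟨φ.symm h, by simp⟩
      have h1 : φ k * φ h₀ * (φ k)⁻¹ = φ (k * h₀ * k⁻¹) := by simp
      rw [SetLike.mem_coe, SetLike.mem_coe, h1, hmemC, hmemC]
      exact hk h₀
    have h1 := H1 _ hinvN hne
    have h2 := Group.normalizerCondition_of_isNilpotent C (lt_top_iff_ne_top.mpr hC)
    exact absurd h1 (not_le_of_gt h2)
  have hCnormal : ∀ k, ∀ c ∈ C, k * c * k⁻¹ ∈ C := by
    intro k c hc
    have h1 : k ∈ Subgroup.normalizer (C : Set K) := by rw [hCN]; trivial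
    exact (Subgroup.mem_set_normalizer_iff.mp h1 c).mp hc
  -- `C` is central
  have hcentral : ∀ c ∈ C, ∀ k, k * c = c * k := by
    intro c hcC k
    by_cases hD : Subgroup.centralizer ({c} : Set K) = ⊤
    · have h1 : k ∈ Subgroup.centralizer ({c} : Set K) := by rw [hD]; trivial
      exact Subgroup.mem_centralizer_singleton_iff.mp h1
    · exfalso
      have hcf : φ c = c := hcC
      have hinvD : PhiInv φ (Subgroup.centralizer ({c} : Set K)) := by
        intro u hu
        rw [Subgroup.mem_centralizer_singleton_iff] at hu ⊢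
        have := congrArg φ hu
        rwa [map_mul, map_mul, hcf] at this
      have hle := H1 _ hinvD hD
      apply hC
      refine (Subgroup.eq_top_iff' _).mpr fun k => ?_
      refine fix_of_commutators_fixed φ a hφ hc (fun k => hle ?_) k
      rw [Subgroup.mem_centralizer_singleton_iff]
      have h1 : φ (k * c * k⁻¹) = k * c * k⁻¹ := hCnormal k c hcC
      rw [map_mul, map_mul, map_inv, hcf] at h1
      calc (φ k)⁻¹ * k * c = (φ k)⁻¹ * (k * c * k⁻¹) * k := by group
        _ = (φ k)⁻¹ * (φ k * c * (φ k)⁻¹) * k := by rw [h1]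
        _ = c * ((φ k)⁻¹ * k) := by group
  -- the constituents
  have hχ : IsCharacter K ρ.character := isCharacter_character ρ
  have hdeg : charDegree ρ.character = n := by
    have h1 : ρ.character 1 = (n : ℂ) := by
      rw [Representation.char_one]
      simp
    exact charDegree_natCast h1
  have hfixθ := constituent_fixed φ a hφ (by omega : n < p) hχ hdeg hinv
  by_cases hlin : ∀ ψ : IrrCharacter K, classInner ρ.character (ψ : K → ℂ) ≠ 0 → (ψ : K → ℂ) 1 = 1
  · apply hC
    refine (Subgroup.eq_top_iff' _).mpr fun k => ?_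
    have h1 : φ k * k⁻¹ = 1 := by
      refine eq_one_of_constituents ρ hρ _ fun ψ hψ => ?_
      obtain ⟨lam, hlam⟩ := exists_hom_of_character_one (IsIrrCharacter.isCharacter ψ.2) (hlin ψ hψ)
      have h2 := hfixθ ψ hψ k
      rw [hlam] at h2 ⊢
      have h3 : lam (φ k) = lam k := Units.ext h2
      simp [h3]
    exact mul_inv_eq_one.mp h1
  · push Not at hlin
    obtain ⟨θ, hθ, hθ1⟩ := hlin
    obtain ⟨d, σ, hσ, hσχ⟩ := θ.2
    have hθσ : (θ : K → ℂ) = σ.character := hσχ.symm
    have hfin : Module.finrank ℂ (Fin d → ℂ) = d := by simp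
    have hd1 : (θ : K → ℂ) 1 = (d : ℂ) := by
      rw [hθσ, Representation.char_one, hfin]
    have hdne1 : d ≠ 1 := by
      intro h
      apply hθ1
      rw [hd1, h]
      simp
    have hcd : charDegree (θ : K → ℂ) = d := charDegree_natCast hd1
    have hdpos : 0 < d := by
      have := charDegree_pos_of_irr θ.2
      omega
    have hdn : d ≤ n := by
      have h1 := charDegree_le_of_constituent hχ θ.2 hθ
      omega
    have hfixk : ∀ k, σ.character (φ k) = σ.character k := by
      intro k
      have := hfixθ θ hθ k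
      rwa [hθσ] at this
    let A := scalarSubgroup σ
    have hAmem : ∀ k, k ∈ A ↔ ‖σ.character k‖ = (d : ℝ) := by
      intro k
      have h1 := norm_character_eq_iff σ k (isOfFinOrder_of_finite k)
      rw [hfin] at h1
      rw [h1]
      constructor
      · rintro ⟨c, _, hc'⟩
        exact ⟨c, hc'⟩
      · rintro ⟨c, hc'⟩
        exact mem_scalarSubgroup_of_smul σ k c hc'
    have hAinv : PhiInv φ A := by
      intro k hk
      rw [hAmem] at hk ⊢
      rwa [hfixk]
    have hAne : A ≠ ⊤ := by
      intro h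
      have := finrank_eq_one_of_scalarSubgroup_eq_top σ hσ h
      exact hdne1 (by rwa [hfin] at this)
    have hAC : A ≤ C := H1 A hAinv hAne
    have hCA : C ≤ A := by
      intro c hcC
      obtain ⟨ω, hω⟩ := schur_scalar σ hσ (σ c) (by
        intro g v
        rw [← Module.End.mul_apply, ← Module.End.mul_apply, ← map_mul, ← map_mul,
          hcentral c hcC g])
      exact mem_scalarSubgroup_of_smul σ c ω hω
    have hACeq : A = C := le_antisymm hAC hCA
    haveI : Nontrivial K := by
      by_contra hnt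
      rw [not_nontrivial_iff_subsingleton] at hnt
      exact hC (by
        refine (Subgroup.eq_top_iff' _).mpr fun k => ?_
        exact Subsingleton.elim _ _)
    have hcommne : commutator K ≠ ⊤ := (Group.IsSolvable.commutator_lt_top_of_nontrivial K).ne
    have hcomminv : PhiInv φ (commutator K) := by
      intro k hk
      have h1 := Subgroup.characteristic_iff_le_comap.mp
        (inferInstance : (commutator K).Characteristic) φ
      exact h1 hk
    have hcommC : commutator K ≤ C := H1 _ hcomminv hcommne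
    have hvanish : ∀ k, k ∉ A → σ.character k = 0 := by
      intro k hk
      have h1 : ¬ ∀ y, σ y * σ k = σ k * σ y := by
        intro hall
        obtain ⟨ω, hω⟩ := schur_scalar σ hσ (σ k) (by
          intro g v
          rw [← Module.End.mul_apply, ← Module.End.mul_apply, hall g])
        exact hk (mem_scalarSubgroup_of_smul σ k ω hω)
      push Not at h1
      obtain ⟨y, hy⟩ := h1
      set z := y * k * y⁻¹ * k⁻¹ with hz
      have hzC : z ∈ C := by
        apply hcommC
        have : ⁅y, k⁆ ∈ commutator K :=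
          Subgroup.commutator_mem_commutator (Subgroup.mem_top y) (Subgroup.mem_top k)
        rwa [commutatorElement_def] at this
      obtain ⟨ω, hω⟩ := schur_scalar σ hσ (σ z) (by
        intro g v
        rw [← Module.End.mul_apply, ← Module.End.mul_apply, ← map_mul, ← map_mul,
          hcentral z hzC g])
      have hω1 : ω ≠ 1 := by
        rintro rfl
        apply hy
        have h2 : σ z = 1 := by rw [hω, one_smul]
        have h3 : y * k = z * (k * y) := by rw [hz]; group
        rw [← map_mul, ← map_mul, h3, map_mul, h2, one_mul]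
      have h4 : σ.character (y * k * y⁻¹) = σ.character k :=
        IsCharacter.conj_apply (isCharacter_character σ) k y
      have h5 : y * k * y⁻¹ = z * k := by rw [hz]; group
      rw [h5] at h4
      have h6 : σ.character (z * k) = ω * σ.character k := by
        simp only [Representation.character, map_mul, hω]
        rw [smul_mul_assoc, one_mul, map_smul, smul_eq_mul]
      rw [h6] at h4
      have h7 : (ω - 1) * σ.character k = 0 := by rw [sub_mul, h4, one_mul, sub_self]
      exact (mul_eq_zero.mp h7).resolve_left (sub_ne_zero.mpr hω1)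
    -- counting
    have hsum : Nat.card A * d ^ 2 = Nat.card K := by
      have h1 := sum_normSq_irr (χ := σ.character) (hθσ ▸ θ.2)
      have h2 : ∀ k, Complex.normSq (σ.character k) = if k ∈ A then (d : ℝ) ^ 2 else 0 := by
        intro k
        by_cases hk : k ∈ A
        · rw [if_pos hk, Complex.normSq_eq_norm_sq, (hAmem k).mp hk]
        · rw [if_neg hk, hvanish k hk, map_zero]
      rw [Finset.sum_congr rfl (fun k _ => h2 k), ← Finset.sum_filter, Finset.sum_const,
        nsmul_eq_mul] at h1
      have h3 : (Finset.univ.filter (· ∈ A)).card = Nat.card A := by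
        rw [Nat.card_eq_fintype_card, Fintype.card_subtype]
      rw [h3] at h1
      exact_mod_cast h1
    have hfixcard : Nat.card K ≡ Nat.card C [MOD p] := by
      have hΓ := isPGroup_zpowers_of_pow φ a hφ
      have h1 := hΓ.card_modEq_card_fixedPoints K
      have h2 : MulAction.fixedPoints (Subgroup.zpowers φ) K = (C : Set K) := by
        ext k
        constructor
        · intro h
          exact h ⟨φ, Subgroup.mem_zpowers φ⟩
        · rintro h ⟨_, i, rfl⟩
          have h3 : φ k = k := h
          have h4 : ∀ j : ℤ, (φ ^ j) k = k := by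
            intro j
            have h5 : (φ ^ j) ∈ Subgroup.zpowers φ := ⟨j, rfl⟩
            have h6 : Subgroup.zpowers φ ≤ MulAction.stabilizer (MulAut K) k := by
              rw [Subgroup.zpowers_le]
              exact h3
            exact h6 h5
          exact h4 i
      rw [h2] at h1
      exact h1
    have hcC : Nat.Coprime p (Nat.card C) :=
      Nat.Coprime.symm (Nat.Coprime.coprime_dvd_left (Subgroup.card_subgroup_dvd_card C) hc)
    have hsq : d ^ 2 ≡ 1 [MOD p] := by
      have h1 : Nat.card C * d ^ 2 ≡ Nat.card C * 1 [MOD p] := by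
        rw [mul_one, ← hACeq, hsum, hACeq]
        exact hfixcard
      exact Nat.ModEq.cancel_left_of_coprime (by rwa [Nat.coprime_iff_gcd_eq_one] at hcC) h1
    have hdiv : (p : ℤ) ∣ (d : ℤ) ^ 2 - 1 := by
      have := (Nat.modEq_iff_dvd.mp hsq.symm)
      push_cast at this
      exact this
    have hfac : (d : ℤ) ^ 2 - 1 = ((d : ℤ) - 1) * ((d : ℤ) + 1) := by ring
    rw [hfac] at hdiv
    have hpZ : Prime (p : ℤ) := Nat.prime_iff_prime_int.mp hp.out
    have hd2 : 2 ≤ d := by omega
    rcases hpZ.dvd_or_dvd hdiv with h | h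
    · have h1 : (p : ℤ) ≤ (d : ℤ) - 1 := Int.le_of_dvd (by omega) h
      omega
    · have h1 : (p : ℤ) ≤ (d : ℤ) + 1 := Int.le_of_dvd (by omega) h
      omega

/-- Restriction of an automorphism to an invariant subgroup. -/
noncomputable def phiRestrict (φ : MulAut K) (K₁ : Subgroup K) (h : PhiInv φ K₁) : MulAut K₁ :=
  MulEquiv.ofBijective
    ((φ.toMonoidHom.comp K₁.subtype).codRestrict K₁ (fun k => h k k.2))
    (Finite.injective_iff_bijective.mp (by
      intro x y hxy
      have h1 : φ (x : K) = φ (y : K) := congrArg Subtype.val hxy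
      exact Subtype.ext (φ.injective h1)))

theorem phiRestrict_coe (φ : MulAut K) (K₁ : Subgroup K) (h : PhiInv φ K₁) (k : K₁) :
    ((phiRestrict φ K₁ h k : K₁) : K) = φ k := rfl

theorem phiRestrict_pow_coe (φ : MulAut K) (K₁ : Subgroup K) (h : PhiInv φ K₁) (i : ℕ) (k : K₁) :
    (((phiRestrict φ K₁ h) ^ i) k : K) = (φ ^ i) k := by
  induction i generalizing k with
  | zero => rfl
  | succ i ih =>
    rw [pow_succ, MulAut.mul_apply, ih, phiRestrict_coe, pow_succ, MulAut.mul_apply]

/-- The Hall-Higman type lemma: an automorphism of `p`-power order of a `p'`-group preserving the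
character of a faithful representation of degree less than `p - 1` is trivial. -/
theorem fix_of_small {n : ℕ} (hn : n + 1 < p) :
    ∀ (m : ℕ) (K : Type u) [Group K] [Finite K], Nat.card K = m → ∀ (φ : MulAut K) (a : ℕ),
      φ ^ (p ^ a) = 1 → Nat.Coprime (Nat.card K) p →
      ∀ ρ : Representation ℂ K (Fin n → ℂ), Function.Injective ρ →
      (∀ k, ρ.character (φ k) = ρ.character k) → ∀ k, φ k = k := by
  intro m
  induction m using Nat.strong_induction_on with
  | _ m ih =>
    intro K _ _ hm φ a hφ hc ρ hρ hinv k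
    have h1 := main_step φ a hφ hc hn ρ hρ hinv ?_
    · have h2 : k ∈ fixSub φ := by rw [h1]; trivial
      exact h2
    · intro K₁ hK₁ hne u hu
      have hlt : Nat.card K₁ < m := by
        rw [← hm]
        refine lt_of_le_of_ne (Subgroup.card_le_card_group K₁) fun h => hne ?_
        exact Subgroup.eq_top_of_card_eq K₁ h
      have h3 := ih _ hlt K₁ rfl (phiRestrict φ K₁ hK₁) a
        (by
          ext k
          rw [phiRestrict_pow_coe, hφ]
          rfl)
        (Nat.Coprime.coprime_dvd_left (Subgroup.card_subgroup_dvd_card K₁) hc)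
        (ρ.comp K₁.subtype)
        (by
          intro x y hxy
          exact Subtype.ext (hρ hxy))
        (by
          intro k
          exact hinv k)
        ⟨u, hu⟩
      exact congrArg Subtype.val h3

end Fixed

end Cfsg.Agent.Lib.FTBound
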