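import Mathlib
import Cfsg.Agent.Lib.FTBound
import Cfsg.Agent.Lib.FTBound2

set_option autoImplicit false

open scoped ComplexConjugate Pointwise commutatorElement IsMulCommutative

namespace Cfsg.Agent.Lib.FTBound

open Cfsg (IsCharacter IsIrrCharacter IrrCharacter IsGeneralizedCharacter classInner
  IsClassFunction)
open Cfsg.Agent.Lib.Char

universe u

section Closed

variable {G : Type u} [Group G] {p : ℕ}

/-- All the `p`-elements of `K` lie in a single `p`-subgroup of `K`. -/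
def PC (p : ℕ) (K : Subgroup G) : Prop :=
  ∃ R : Subgroup G, R ≤ K ∧ IsPGroup p R ∧ ∀ u ∈ K, (∃ k : ℕ, u ^ (p ^ k) = 1) → u ∈ R

variable [Fact p.Prime]

theorem sylow_elt (S : Sylow p G) {u : G} (hu : u ∈ S) : ∃ k : ℕ, u ^ (p ^ k) = 1 := by
  obtain ⟨k, hk⟩ := S.isPGroup' ⟨u, hu⟩
  exact ⟨k, congrArg Subtype.val hk⟩

theorem isPGroup_zpowers_of_elt {u : G} (hu : ∃ k : ℕ, u ^ (p ^ k) = 1) :
    IsPGroup p (Subgroup.zpowers u) := by
  obtain ⟨k, hk⟩ := hu
  rintro ⟨_, i, rfl⟩
  refine ⟨k, Subtype.ext ?_⟩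
  change (u ^ i) ^ (p ^ k) = 1
  rw [← zpow_natCast, ← zpow_mul, mul_comm, zpow_mul, zpow_natCast, hk, one_zpow]

theorem elt_conj {u : G} (g : G) (hu : ∃ k : ℕ, u ^ (p ^ k) = 1) :
    ∃ k : ℕ, (g * u * g⁻¹) ^ (p ^ k) = 1 := by
  obtain ⟨k, hk⟩ := hu
  refine ⟨k, ?_⟩
  rw [conj_pow, hk, mul_one, mul_inv_cancel]

/-- A subgroup in which all the `p`-elements lie in `R`: a Sylow subgroup contained in it is `R`. -/
theorem pc_sylow_eq {K R : Subgroup G} (hR : IsPGroup p R)
    (hall : ∀ u ∈ K, (∃ k : ℕ, u ^ (p ^ k) = 1) → u ∈ R) (S : Sylow p G) (hS : (S : Subgroup G) ≤ K) :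
    (S : Subgroup G) = R := by
  have h1 : (S : Subgroup G) ≤ R := fun u hu => hall u (hS hu) (sylow_elt S hu)
  exact (S.is_maximal' hR h1).symm

theorem pc_unique {K : Subgroup G} (hK : PC p K) (S₁ S₂ : Sylow p G)
    (h₁ : (S₁ : Subgroup G) ≤ K) (h₂ : (S₂ : Subgroup G) ≤ K) : S₁ = S₂ := by
  obtain ⟨R, _, hR, hall⟩ := hK
  apply Sylow.ext
  rw [pc_sylow_eq hR hall S₁ h₁, pc_sylow_eq hR hall S₂ h₂]

theorem elt_mem_of_normal (S : Sylow p G) (hS : (S : Subgroup G).Normal) {u : G}
    (hu : ∃ k : ℕ, u ^ (p ^ k) = 1) : u ∈ S := by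
  have h1 : IsPGroup p ((S : Subgroup G) ⊔ Subgroup.zpowers u : Subgroup G) :=
    IsPGroup.to_sup_of_normal_left S.isPGroup' (isPGroup_zpowers_of_elt hu)
  have h2 := S.is_maximal' h1 le_sup_left
  have h3 : u ∈ ((S : Subgroup G) ⊔ Subgroup.zpowers u : Subgroup G) :=
    Subgroup.mem_sup_right (Subgroup.mem_zpowers u)
  rw [h2] at h3
  exact h3

theorem pc_top_of_normal (S : Sylow p G) (hS : (S : Subgroup G).Normal) :
    PC p (⊤ : Subgroup G) :=
  ⟨S, le_top, S.isPGroup', fun _ _ hu => elt_mem_of_normal S hS hu⟩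

/-- A normal subgroup with normal Sylow subgroup containing a Sylow subgroup. -/
theorem normal_of_pc_normal {M : Subgroup G} (hM : M.Normal) (hpc : PC p M) (S : Sylow p G)
    (hS : (S : Subgroup G) ≤ M) : (S : Subgroup G).Normal := by
  obtain ⟨R, _, hR, hall⟩ := hpc
  have h1 := pc_sylow_eq hR hall S hS
  refine ⟨fun s hs g => ?_⟩
  rw [h1]
  exact hall _ (hM.conj_mem s (hS hs) g) (elt_conj g (sylow_elt S hs))

theorem sylow_normal_of_pc_top (hpc : PC p (⊤ : Subgroup G)) (S : Sylow p G) :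
    (S : Subgroup G).Normal :=
  normal_of_pc_normal (Subgroup.normal_top) hpc S le_top

/-- Converting between statements for a subgroup and statements for its type. -/
theorem pc_top_subtype {K : Subgroup G} (h : PC p (⊤ : Subgroup K)) : PC p K := by
  obtain ⟨R, _, hR, hall⟩ := h
  refine ⟨R.map K.subtype, ?_, hR.map _, ?_⟩
  · rintro _ ⟨r, _, rfl⟩
    exact r.2
  · rintro u hu ⟨k, hk⟩
    have h1 := hall ⟨u, hu⟩ (Subgroup.mem_top _) ⟨k, Subtype.ext hk⟩
    exact ⟨⟨u, hu⟩, h1, rfl⟩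

theorem pc_map_subtype {K : Subgroup G} {K₁ : Subgroup K} (h : PC p (K₁.map K.subtype)) :
    PC p K₁ := by
  obtain ⟨R, hRle, hR, hall⟩ := h
  refine ⟨R.subgroupOf K, ?_, ?_, ?_⟩
  · intro w hw
    obtain ⟨v, hv, hvw⟩ := hRle hw
    have : v = w := Subtype.ext hvw
    rwa [← this]
  · rintro ⟨w, hw⟩
    obtain ⟨k, hk⟩ := hR ⟨(w : G), hw⟩
    have h2 : (w : G) ^ (p ^ k) = 1 := congrArg Subtype.val hk
    refine ⟨k, Subtype.ext (Subtype.ext ?_)⟩
    simpa using h2
  · rintro u hu ⟨k, hk⟩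
    refine hall (u : G) ⟨u, hu, rfl⟩ ⟨k, ?_⟩
    exact congrArg Subtype.val hk

theorem pc_of_sylow_normal [Finite G] (K : Subgroup G)
    (h : ∀ Q : Sylow p K, (Q : Subgroup K).Normal) : PC p K := by
  obtain ⟨Q⟩ := (inferInstance : Nonempty (Sylow p K))
  exact pc_top_subtype (pc_top_of_normal Q (h Q))

end Closed

section Core

variable {G : Type u} [Group G] [Finite G] {p : ℕ} [Fact p.Prime]

theorem coe_smul_eq_map (a : G) (P : Sylow p G) :
    ((a • P : Sylow p G) : Subgroup G) = (P : Subgroup G).map (MulAut.conj a).toMonoidHom := rfl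

/-- The fusion condition for abelian Sylow subgroups meeting the centre trivially. -/
theorem sylow_eq_of_centralizer (hprop : ∀ K : Subgroup G, K ≠ ⊤ → PC p K)
    (hab : ∀ S : Sylow p G, ∀ a ∈ S, ∀ b ∈ S, a * b = b * a)
    (hZ : ∀ S : Sylow p G, (S : Subgroup G) ⊓ Subgroup.center G = ⊥) {g : G}
    (hg : g ∉ Subgroup.center G) (S₁ S₂ : Sylow p G)
    (h₁ : Subgroup.centralizer ({g} : Set G) ⊓ (S₁ : Subgroup G) ≠ ⊥)
    (h₂ : Subgroup.centralizer ({g} : Set G) ⊓ (S₂ : Subgroup G) ≠ ⊥) : S₁ = S₂ := by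
  have hnotZ : ∀ (S : Sylow p G) (u : G), u ∈ S → u ≠ 1 → u ∉ Subgroup.center G := by
    intro S u hu hu1 huZ
    have : u ∈ (S : Subgroup G) ⊓ Subgroup.center G := Subgroup.mem_inf.2 ⟨hu, huZ⟩
    rw [hZ S, Subgroup.mem_bot] at this
    exact hu1 this
  have hcentne : ∀ u : G, u ∉ Subgroup.center G → Subgroup.centralizer ({u} : Set G) ≠ ⊤ := by
    intro u hu h
    apply hu
    rw [Subgroup.mem_center_iff]
    intro x
    have : x ∈ Subgroup.centralizer ({u} : Set G) := by rw [h]; trivial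
    exact Subgroup.mem_centralizer_singleton_iff.mp this
  have hsyl : ∀ (S : Sylow p G) (u : G), u ∈ S → (S : Subgroup G) ≤ Subgroup.centralizer ({u} : Set G) := by
    intro S u hu v hv
    rw [Subgroup.mem_centralizer_singleton_iff]
    exact hab S v hv u hu
  obtain ⟨u, hu, hu1⟩ := (Subgroup.bot_or_exists_ne_one _).resolve_left h₁
  obtain ⟨v, hv, hv1⟩ := (Subgroup.bot_or_exists_ne_one _).resolve_left h₂
  obtain ⟨huC, huS⟩ := Subgroup.mem_inf.1 hu
  obtain ⟨hvC, hvS⟩ := Subgroup.mem_inf.1 hv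
  -- `u`, `v` commute
  obtain ⟨R, _, hR, hall⟩ := hprop _ (hcentne g hg)
  have huR := hall u huC (sylow_elt S₁ huS)
  have hvR := hall v hvC (sylow_elt S₂ hvS)
  obtain ⟨S₃, hS₃⟩ := hR.exists_le_sylow
  have huv : v * u = u * v := hab S₃ v (hS₃ hvR) u (hS₃ huR)
  -- `v ∈ S₁`
  obtain ⟨R₁, _, hR₁, hall₁⟩ := hprop _ (hcentne u (hnotZ S₁ u huS hu1))
  have h1 := pc_sylow_eq hR₁ hall₁ S₁ (hsyl S₁ u huS)
  have hvS₁ : v ∈ S₁ := by
    have : v ∈ R₁ := hall₁ v (Subgroup.mem_centralizer_singleton_iff.mpr huv) (sylow_elt S₂ hvS)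
    rw [← h1] at this
    exact this
  exact pc_unique (hprop _ (hcentne v (hnotZ S₁ v hvS₁ hv1))) S₁ S₂ (hsyl S₁ v hvS₁) (hsyl S₂ v hvS)

/-- The core bound. -/
theorem core_bound {n : ℕ} (ρ : Representation ℂ G (Fin n → ℂ)) (hρ : Function.Injective ρ)
    (hprop : ∀ K : Subgroup G, K ≠ ⊤ → PC p K) (hnot : ¬ PC p (⊤ : Subgroup G))
    (hab : ∀ S : Sylow p G, ∀ a ∈ S, ∀ b ∈ S, a * b = b * a)
    (hZ : ∀ S : Sylow p G, (S : Subgroup G) ⊓ Subgroup.center G = ⊥) (P : Sylow p G) :
    (Nat.card P : ℝ) < (1 + (n : ℝ)) ^ 2 := by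
  classical
  letI : Fintype G := Fintype.ofFinite G
  letI : Fintype P := Fintype.ofFinite P
  have hχ : IsCharacter G ρ.character := isCharacter_character ρ
  have hdeg : charDegree ρ.character = n := by
    have h1 : ρ.character 1 = (n : ℂ) := by
      rw [Representation.char_one]
      simp
    exact charDegree_natCast h1
  by_cases hlin : ∀ ψ : IrrCharacter G, classInner ρ.character (ψ : G → ℂ) ≠ 0 → (ψ : G → ℂ) 1 = 1
  · exfalso
    apply hnot
    have hcomm := comm_of_linear ρ hρ hlin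
    refine pc_top_of_normal P ⟨fun s hs g => ?_⟩
    rw [hcomm g s, mul_assoc, mul_inv_cancel, mul_one]
    exact hs
  · push Not at hlin
    obtain ⟨θ, hθ, hθ1⟩ := hlin
    have hone : OneConj (P : Subgroup G) := by
      intro g hg a b h₁ h₂
      have h3 := sylow_eq_of_centralizer hprop hab hZ hg (a • P) (b • P) h₁ h₂
      have h4 := congrArg (fun S : Sylow p G => (S : Subgroup G)) h3
      exact h4
    have hnorm : ∀ M : Subgroup G, M.Normal → (P : Subgroup G) ≤ M → M = ⊤ := by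
      intro M hM hPM
      by_contra hne
      exact hnot (pc_top_of_normal P (normal_of_pc_normal hM (hprop M hne) P hPM))
    have h1 := part_two (P : Subgroup G) (hab P) (hZ P) hone θ θ.2 hθ1 hnorm
    have h2 : charDegree (θ : G → ℂ) ≤ n := by
      have := charDegree_le_of_constituent hχ θ.2 hθ
      omega
    have h3 : ((θ : G → ℂ) 1).re = charDegree (θ : G → ℂ) := by
      rw [map_one_eq_charDegree (IsIrrCharacter.isCharacter θ.2)]
      simp
    rw [h3] at h1
    have h4 : (charDegree (θ : G → ℂ) : ℝ) ≤ n := by exact_mod_cast h2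
    calc (Nat.card P : ℝ) < _ := h1
      _ ≤ (1 + (n : ℝ)) ^ 2 := by
        have h5 : (0 : ℝ) ≤ charDegree (θ : G → ℂ) := by positivity
        nlinarith

/-- The case of a central element in a Sylow subgroup. -/
theorem case_central {n : ℕ} (hn : n + 1 < p) (ρ : Representation ℂ G (Fin n → ℂ))
    (hρ : Function.Injective ρ) (hprop : ∀ K : Subgroup G, K ≠ ⊤ → PC p K)
    (hnot : ¬ PC p (⊤ : Subgroup G)) (P : Sylow p G)
    (hab : ∀ a ∈ P, ∀ b ∈ P, a * b = b * a) {z : G} (hzP : z ∈ P)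
    (hzZ : z ∈ Subgroup.center G) (hz1 : z ≠ 1) : False := by
  classical
  haveI : IsMulCommutative P := ⟨⟨fun a b => Subtype.ext (hab a a.2 b b.2)⟩⟩
  -- any proper normal subgroup containing `P` is impossible
  have hnormP : ∀ M : Subgroup G, M.Normal → (P : Subgroup G) ≤ M → M = ⊤ := by
    intro M hM hPM
    by_contra hne
    exact hnot (pc_top_of_normal P (normal_of_pc_normal hM (hprop M hne) P hPM))
  let V : G →* P := MonoidHom.transfer (MonoidHom.id P)
  have hVz : z ∉ V.ker := by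
    intro hker
    have h1 := MonoidHom.transfer_eq_pow (MonoidHom.id P) z (fun k g₀ _ => by
      have h2 : z ^ k ∈ Subgroup.center G := Subgroup.pow_mem _ hzZ k
      have h3 := Subgroup.mem_center_iff.mp h2 g₀⁻¹
      rw [h3, mul_assoc, inv_mul_cancel, mul_one])
    have h2 : V z = 1 := hker
    have h3 : z ^ (P : Subgroup G).index = 1 := by
      have h4 : (MonoidHom.transfer (MonoidHom.id P)) z = 1 := h2
      rw [h1] at h4
      exact congrArg Subtype.val h4
    obtain ⟨k, hk⟩ := sylow_elt P hzP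
    have h5 : orderOf z ∣ p ^ k := orderOf_dvd_of_pow_eq_one hk
    have h6 : orderOf z ∣ (P : Subgroup G).index := orderOf_dvd_of_pow_eq_one h3
    have h7 : Nat.Coprime (p ^ k) (P : Subgroup G).index :=
      Nat.Coprime.pow_left k ((Nat.Prime.coprime_iff_not_dvd Fact.out).mpr P.not_dvd_index)
    have h8 := Nat.eq_one_of_dvd_coprimes h7 h5 h6
    exact hz1 (orderOf_eq_one_iff.mp h8)
  have hLne : V.ker ≠ ⊤ := fun h => hVz (by rw [h]; trivial)
  have hLn : V.ker.Normal := MonoidHom.normal_ker V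
  obtain ⟨R, hRL, hRp, hRall⟩ := hprop _ hLne
  have hRn : R.Normal := by
    refine ⟨fun r hr g => ?_⟩
    have h1 : ∃ k : ℕ, r ^ (p ^ k) = 1 := by
      obtain ⟨k, hk⟩ := hRp ⟨r, hr⟩
      exact ⟨k, congrArg Subtype.val hk⟩
    exact hRall _ (hLn.conj_mem r (hRL hr) g) (elt_conj g h1)
  have hRP : R ≤ P := by
    have h1 : IsPGroup p ((P : Subgroup G) ⊔ R : Subgroup G) :=
      IsPGroup.to_sup_of_normal_right P.isPGroup' hRp
    have h2 := P.is_maximal' h1 le_sup_left
    intro r hr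
    have h3 : r ∈ ((P : Subgroup G) ⊔ R : Subgroup G) := Subgroup.mem_sup_right hr
    rw [h2] at h3
    exact h3
  have hCR : ∀ r ∈ R, ∀ g, g * r = r * g := by
    have h1 : Subgroup.centralizer (R : Set G) = ⊤ := by
      refine hnormP _ (Subgroup.normal_centralizer) ?_
      intro u hu r hr
      exact hab r (hRP hr) u hu
    intro r hr g
    have h2 : g ∈ Subgroup.centralizer (R : Set G) := by rw [h1]; trivial
    exact (Subgroup.mem_centralizer_iff.mp h2 r hr).symm
  -- the normalizer of `P` centralizes `P`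
  have hP : Subgroup.normalizer (P : Set G) ≤ Subgroup.centralizer (P : Set G) := by
    intro y hy u hu
    have hyu : y * u * y⁻¹ ∈ P := (Subgroup.mem_set_normalizer_iff.mp hy u).mp hu
    set r := y * u * y⁻¹ * u⁻¹ with hr
    have hrP : r ∈ P := Subgroup.mul_mem _ hyu (Subgroup.inv_mem _ hu)
    have hrL : r ∈ V.ker := by
      rw [MonoidHom.mem_ker, hr]
      simp only [map_mul, map_inv]
      have hcomm : ∀ a b : P, a * b = b * a := fun a b => Subtype.ext (hab a a.2 b b.2)
      rw [hcomm (V y) (V u), mul_assoc (V u), mul_inv_cancel, mul_one, mul_inv_cancel]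
    have hrR : r ∈ R := hRall r hrL (sylow_elt P hrP)
    have hyr : ∀ i : ℕ, y ^ i * u * (y ^ i)⁻¹ = r ^ i * u := by
      intro i
      induction i with
      | zero => simp
      | succ i ih =>
        have h1 : y * u = r * u * y := by rw [hr]; group
        have h2 : y * r ^ i = r ^ i * y :=
          hCR _ (Subgroup.pow_mem _ hrR i) y
        calc y ^ (i + 1) * u * (y ^ (i + 1))⁻¹ = y * (y ^ i * u * (y ^ i)⁻¹) * y⁻¹ := by
              rw [pow_succ']
              group
          _ = y * (r ^ i * u) * y⁻¹ := by rw [ih]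
          _ = r ^ i * (y * u) * y⁻¹ := by rw [← mul_assoc y, h2]; group
          _ = r ^ i * (r * u * y) * y⁻¹ := by rw [h1]
          _ = r ^ (i + 1) * u := by
              rw [pow_succ]
              group
    -- `y` decomposes
    obtain ⟨s, m, hm, hord⟩ := Nat.exists_eq_pow_mul_and_not_dvd
      (orderOf_pos y).ne' p (Fact.out : p.Prime).one_lt.ne'
    have hym : ∃ k : ℕ, (y ^ m) ^ (p ^ k) = 1 := by
      refine ⟨s, ?_⟩
      rw [← pow_mul, mul_comm, ← hord, pow_orderOf_eq_one]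
    have hNne : Subgroup.normalizer (P : Set G) ≠ ⊤ := by
      intro h
      have h1 : (P : Subgroup G).Normal := Subgroup.normalizer_eq_top_iff.mp h
      exact hnot (pc_top_of_normal P h1)
    obtain ⟨R₁, _, hR₁, hall₁⟩ := hprop _ hNne
    have h1 := pc_sylow_eq hR₁ hall₁ P Subgroup.le_normalizer
    have hymP : y ^ m ∈ P := by
      have : y ^ m ∈ R₁ := hall₁ _ (Subgroup.pow_mem _ hy m) hym
      rw [← h1] at this
      exact this
    have h2 := hyr m
    have h3 : y ^ m * u * (y ^ m)⁻¹ = u := by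
      rw [hab _ hymP u hu, mul_assoc, mul_inv_cancel, mul_one]
    rw [h3] at h2
    have h4 : r ^ m = 1 := by
      have : u * u⁻¹ = r ^ m * u * u⁻¹ := by rw [← h2]
      simpa using this.symm
    obtain ⟨t, ht⟩ := sylow_elt P hrP
    have h5 : orderOf r ∣ p ^ t := orderOf_dvd_of_pow_eq_one ht
    have h6 : orderOf r ∣ m := orderOf_dvd_of_pow_eq_one h4
    have h7 : Nat.Coprime (p ^ t) m :=
      Nat.Coprime.pow_left t ((Nat.Prime.coprime_iff_not_dvd Fact.out).mpr hm)
    have h8 := Nat.eq_one_of_dvd_coprimes h7 h5 h6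
    have h9 : r = 1 := orderOf_eq_one_iff.mp h8
    have h10 : y * u * y⁻¹ = u := by
      rw [hr] at h9
      exact mul_inv_eq_one.mp h9
    exact eq_mul_inv_iff_mul_eq.mp h10.symm
  -- Burnside's normal complement
  have hcompl := MonoidHom.ker_transferSylow_isComplement' P hP
  set K := (MonoidHom.transferSylow P hP).ker with hK
  have hKn : K.Normal := MonoidHom.normal_ker _
  have hKcop : Nat.Coprime (Nat.card K) p :=
    Nat.Coprime.symm ((Nat.Prime.coprime_iff_not_dvd Fact.out).mpr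
      (MonoidHom.not_dvd_card_ker_transferSylow P hP))
  have hfix : ∀ x ∈ P, ∀ k ∈ K, x * k * x⁻¹ = k := by
    intro x hx k hk
    obtain ⟨a, ha⟩ := sylow_elt P hx
    have hφ : (MulAut.conjNormal x : MulAut K) ^ (p ^ a) = 1 := by
      rw [← map_pow, ha, map_one]
    have h1 := fix_of_small hn _ K rfl (MulAut.conjNormal x) a hφ hKcop (ρ.comp K.subtype)
      (by
        intro u v huv
        exact Subtype.ext (hρ huv))
      (by
        intro u
        change ρ.character (x * u * x⁻¹) = ρ.character u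
        exact IsCharacter.conj_apply (isCharacter_character ρ) u x)
      ⟨k, hk⟩
    have h2 := congrArg Subtype.val h1
    rwa [MulAut.conjNormal_apply] at h2
  apply hnot
  refine pc_top_of_normal P ⟨fun u hu g => ?_⟩
  obtain ⟨⟨⟨k, hk⟩, ⟨v, hv⟩⟩, hg⟩ := hcompl.2 g
  have hg' : k * v = g := hg
  have h1 : u * k * u⁻¹ = k := hfix u hu k hk
  have h2 : v * u * v⁻¹ = u := by
    rw [hab v hv u hu, mul_assoc, mul_inv_cancel, mul_one]
  have h3 : k * u = u * k := by
    calc k * u = (u * k * u⁻¹) * u := by rw [h1]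
      _ = u * k := by group
  have h4 : g * u * g⁻¹ = u := by
    rw [← hg']
    calc k * v * u * (k * v)⁻¹ = k * (v * u * v⁻¹) * k⁻¹ := by group
      _ = k * u * k⁻¹ := by rw [h2]
      _ = u := by rw [h3]; group
  rw [h4]
  exact hu

/-- The Sylow subgroups are abelian for small degree. -/
theorem sylow_comm_of_small {n : ℕ} (hn : n < p) (ρ : Representation ℂ G (Fin n → ℂ))
    (hρ : Function.Injective ρ) (S : Sylow p G) : ∀ a ∈ S, ∀ b ∈ S, a * b = b * a := by
  classical
  letI : Fintype S := Fintype.ofFinite S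
  let ρ₁ : Representation ℂ S (Fin n → ℂ) := ρ.comp (S : Subgroup G).subtype
  have hρ₁ : Function.Injective ρ₁ := fun u v huv => Subtype.ext (hρ huv)
  have hχ : IsCharacter S ρ₁.character := isCharacter_character ρ₁
  have hdeg : charDegree ρ₁.character = n := by
    have h1 : ρ₁.character 1 = (n : ℂ) := by
      rw [Representation.char_one]
      simp
    exact charDegree_natCast h1
  have hcomm := comm_of_linear ρ₁ hρ₁ (by
    intro ψ hψ
    have h1 := charDegree_le_of_constituent hχ ψ.2 hψ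
    have h2 := charDegree_dvd_card ψ.2
    obtain ⟨v, hv⟩ := IsPGroup.iff_card.mp S.isPGroup'
    rw [hv] at h2
    obtain ⟨j, _, hj⟩ := (Nat.dvd_prime_pow Fact.out).mp h2
    have h3 : charDegree (ψ : S → ℂ) = 1 := by
      rw [hj]
      rcases Nat.eq_zero_or_pos j with rfl | hjpos
      · simp
      · exfalso
        have h4 : p ≤ p ^ j := Nat.le_self_pow hjpos.ne' p
        rw [hj] at h1
        omega
    rw [map_one_eq_charDegree (IsIrrCharacter.isCharacter ψ.2), h3]
    simp)
  intro a ha b hb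
  exact congrArg Subtype.val (hcomm ⟨a, ha⟩ ⟨b, hb⟩)

/-- Case of a square dividing the order. -/
theorem step_B {n : ℕ} (hn : n + 1 < p) (ρ : Representation ℂ G (Fin n → ℂ))
    (hρ : Function.Injective ρ) (hprop : ∀ K : Subgroup G, K ≠ ⊤ → PC p K)
    (h2 : p ^ 2 ∣ Nat.card G) : PC p (⊤ : Subgroup G) := by
  by_contra hnot
  have hab := sylow_comm_of_small (by omega : n < p) ρ hρ
  obtain ⟨P⟩ := (inferInstance : Nonempty (Sylow p G))
  by_cases hZ : ∀ S : Sylow p G, (S : Subgroup G) ⊓ Subgroup.center G = ⊥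
  · have h1 := core_bound ρ hρ hprop hnot hab hZ P
    have h3 : p ^ 2 ≤ Nat.card P :=
      Nat.le_of_dvd Nat.card_pos (Sylow.pow_dvd_card_of_pow_dvd_card P h2)
    have h4 : ((p : ℝ)) ^ 2 ≤ Nat.card P := by exact_mod_cast h3
    have h5 : (1 + (n : ℝ)) < p := by
      have : ((n + 1 : ℕ) : ℝ) < p := by exact_mod_cast hn
      push_cast at this
      linarith
    have h6 : (0 : ℝ) ≤ n := by positivity
    nlinarith
  · push Not at hZ
    obtain ⟨S, hS⟩ := hZ
    obtain ⟨z, hz, hz1⟩ := (Subgroup.bot_or_exists_ne_one _).resolve_left hS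
    obtain ⟨hzS, hzZ⟩ := Subgroup.mem_inf.1 hz
    exact case_central hn ρ hρ hprop hnot S (hab S) hzS hzZ hz1

/-- Case of a Sylow subgroup of prime order. -/
theorem step_A {n : ℕ} (hn : (n + 1) ^ 2 ≤ p) (ρ : Representation ℂ G (Fin n → ℂ))
    (hρ : Function.Injective ρ) (hprop : ∀ K : Subgroup G, K ≠ ⊤ → PC p K)
    (h2 : ¬ p ^ 2 ∣ Nat.card G) : PC p (⊤ : Subgroup G) := by
  by_contra hnot
  have hcard : ∀ S : Sylow p G, Nat.card S = p := by
    intro S
    obtain ⟨v, hv⟩ := IsPGroup.iff_card.mp S.isPGroup'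
    have hdvd : p ^ v ∣ Nat.card G := by
      rw [← hv]
      exact Subgroup.card_subgroup_dvd_card _
    have hv2 : v < 2 := by
      by_contra hc
      exact h2 ((pow_dvd_pow p (by omega)).trans hdvd)
    interval_cases v
    · exfalso
      apply hnot
      have h1 : (S : Subgroup G) = ⊥ := by
        rw [pow_zero] at hv
        exact Subgroup.card_eq_one.mp hv
      refine pc_top_of_normal S ?_
      rw [h1]
      infer_instance
    · simpa using hv
  have hab : ∀ S : Sylow p G, ∀ a ∈ S, ∀ b ∈ S, a * b = b * a := by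
    intro S a ha b hb
    haveI := isCyclic_of_prime_card (hcard S)
    have h1 := (IsCyclic.isMulCommutative (α := S)).is_comm.comm ⟨a, ha⟩ ⟨b, hb⟩
    exact congrArg Subtype.val h1
  have hZ : ∀ S : Sylow p G, (S : Subgroup G) ⊓ Subgroup.center G = ⊥ := by
    intro S
    by_contra hS
    obtain ⟨z, hz, hz1⟩ := (Subgroup.bot_or_exists_ne_one _).resolve_left hS
    obtain ⟨hzS, hzZ⟩ := Subgroup.mem_inf.1 hz
    apply hnot
    have h1 : (S : Subgroup G) ≤ Subgroup.center G := by
      intro u hu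
      have h3 : (⟨z, hzS⟩ : S) ≠ 1 := fun h => hz1 (congrArg Subtype.val h)
      obtain ⟨i, hi⟩ := mem_zpowers_of_prime_card (hcard S) (g' := (⟨u, hu⟩ : S)) h3
      have h4 : (⟨z, hzS⟩ : S) ^ i = ⟨u, hu⟩ := hi
      have h5 : z ^ i = u := congrArg Subtype.val h4
      rw [← h5]
      exact Subgroup.zpow_mem _ hzZ i
    refine pc_top_of_normal S ⟨fun s hs g => ?_⟩
    have h2' := Subgroup.mem_center_iff.mp (h1 hs) g
    rw [h2', mul_assoc, mul_inv_cancel, mul_one]
    exact hs
  obtain ⟨P⟩ := (inferInstance : Nonempty (Sylow p G))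
  have h1 := core_bound ρ hρ hprop hnot hab hZ P
  rw [hcard P] at h1
  have h3 : (((n + 1) ^ 2 : ℕ) : ℝ) ≤ p := by exact_mod_cast hn
  push_cast at h3
  nlinarith

end Core

section Main

/-- The induction. -/
theorem main_pc (n p : ℕ) [Fact p.Prime] :
    ∀ (m : ℕ) (G : Type u) [Group G] [Finite G], Nat.card G = m →
      ∀ ρ : Representation ℂ G (Fin n → ℂ), Function.Injective ρ →
      ((n + 1) ^ 2 ≤ p ∨ (n + 1 < p ∧ ∀ K : Subgroup G, ¬ p ^ 2 ∣ Nat.card K → PC p K)) →
      PC p (⊤ : Subgroup G) := by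
  intro m
  induction m using Nat.strong_induction_on with
  | _ m ih =>
    intro G _ _ hm ρ hρ h
    have hprop : ∀ K : Subgroup G, K ≠ ⊤ → PC p K := by
      intro K hK
      have hlt : Nat.card K < m := by
        rw [← hm]
        refine lt_of_le_of_ne (Subgroup.card_le_card_group K) fun h' => hK ?_
        exact Subgroup.eq_top_of_card_eq K h'
      refine pc_top_subtype (ih _ hlt K rfl (ρ.comp K.subtype)
        (fun u v huv => Subtype.ext (hρ huv)) ?_)
      rcases h with h | ⟨h1, h2⟩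
      · exact Or.inl h
      · refine Or.inr ⟨h1, fun K₁ hK₁ => pc_map_subtype (h2 _ ?_)⟩
        rwa [Subgroup.card_map_of_injective K.subtype_injective]
    have hlt : n + 1 < p := by
      rcases h with h | ⟨h1, _⟩
      · rcases Nat.eq_zero_or_pos n with rfl | hpos
        · exact (Fact.out : p.Prime).one_lt
        · nlinarith
      · exact h1
    by_cases hp2 : p ^ 2 ∣ Nat.card G
    · exact step_B hlt ρ hρ hprop hp2
    · rcases h with h | ⟨_, h2⟩
      · exact step_A h ρ hρ hprop hp2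
      · exact h2 ⊤ (by rwa [Subgroup.card_top])

end Main

end Cfsg.Agent.Lib.FTBound
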